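import Cfsg.Agent.H24.C27a

/-! The 27-dimensional representation of type E6: the cubic form. -/

set_option linter.unusedSectionVars false
set_option maxHeartbeats 400000
set_option maxRecDepth 100000

namespace H24.C27
open Matrix Cfsg.Lie

variable {F : Type*} [Field F]

theorem X_add {r : ℕ} (hr : r < 72) (t u : F) : X r (t + u) = X r t * X r u := by
  have := chkW_spec (t := t) (u := u) e_surj (.cons (grep_colX _ _ _ _) (.cons (grep_colX _ _ _ _) .nil))
    (.cons (grep_colX _ _ _ _) .nil) (allLt_iff.1 chk_add r hr)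
  simpa [evP] using this.symm

theorem X_zero (r : ℕ) : X r (0 : F) = 1 := by simp [X]

noncomputable def xU (r : Fin chevE6.nroots) (t : F) : GL I27 F :=
  ⟨X r t, X r (-t), by rw [← X_add r.2, add_neg_cancel, X_zero], by rw [← X_add r.2, neg_add_cancel, X_zero]⟩

/-- the root elements on the 27-dimensional module -/
noncomputable def st (F : Type*) [Field F] : St0 tabE6_chk.cd F (GL I27 F) where
  x := xU
  x_add r t u := Units.ext (X_add r.2 t u)
  comm r s t u h1 h2 := Units.ext (by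
    have h := tabE6_chk
    have := allLt_iff.1 (chk_c r.2) s s.2
    simp only [bor_iff, Nat.beq_eq] at this
    replace this := (this.resolve_left fun e => h1 (Fin.ext e)).resolve_left
      (by rw [← h.val_neg]; exact fun e => h2 (Fin.ext e))
    have := chkW_spec (t := t) (u := u) e_surj (.cons (grep_colX _ _ _ _) (.cons (grep_colX _ _ _ _) .nil))
      (.cons (grep_colX _ _ _ _) (.cons (grep_colX _ _ _ _) (l₁ := (h.cd.terms r s).map
        fun c => X c.1 ((c.2.1 : F) * (-t) ^ c.2.2.1 * u ^ c.2.2.2)) ?_)) this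
    · simp only [Units.val_mul]
      rw [← Units.coeHom_apply (List.prod _), map_list_prod, List.map_map]
      simpa [evP, mul_assoc, xU, Function.comp_def] using this
    · simp only [Tab.Chk.cd, List.map_map, List.forall₂_map_left_iff, List.forall₂_map_right_iff, List.forall₂_same]
      intro c hc
      have hc1 := (h.gTerms_spec r s c hc).1
      have := grep_colX c.1 t u [(c.2.1 * (-1) ^ c.2.2.1, c.2.2.1, c.2.2.2)]
      convert this using 1
      simp only [Function.comp_apply, h.val_fin hc1]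
      congr 1
      simp only [evP, List.map_cons, List.map_nil, List.sum_cons, List.sum_nil]
      push_cast
      ring)

theorem coe_x (r : Fin chevE6.nroots) (t : F) : ((st F).x r t : Matrix I27 I27 F) = X r t := rfl

theorem val_neg (r : Fin chevE6.nroots) : (tabE6_chk.cd.neg r : ℕ) = ng r := tabE6_chk.val_neg r

def Tri : List (ℕ × ℕ × ℕ × ℤ) := [(0, 4, 8, 1), (0, 5, 7, -1), (1, 3, 8, -1), (1, 5, 6, 1), (2, 3, 7, 1), (2, 4, 6, -1), (9, 13, 17, 1), (9, 14, 16, -1), (10, 12, 17, -1), (10, 14, 15, 1), (11, 12, 16, 1), (11, 13, 15, -1), (18, 22, 26, 1), (18, 23, 25, -1), (19, 21, 26, -1), (19, 23, 24, 1), (20, 21, 25, 1), (20, 22, 24, -1), (0, 9, 18, -1), (0, 10, 21, -1), (0, 11, 24, -1), (1, 12, 18, -1), (1, 13, 21, -1), (1, 14, 24, -1), (2, 15, 18, -1), (2, 16, 21, -1), (2, 17, 24, -1), (3, 9, 19, -1), (3, 10, 22, -1), (3, 11, 25, -1), (4, 12, 19, -1), (4, 13, 22, -1), (4, 14, 25, -1), (5, 15, 19, -1), (5, 16, 22,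 -1), (5, 17, 25, -1), (6, 9, 20, -1), (6, 10, 23, -1), (6, 11, 26, -1), (7, 12, 20, -1), (7, 13, 23, -1), (7, 14, 26, -1), (8, 15, 20, -1), (8, 16, 23, -1), (8, 17, 26, -1)]

/-- the cubic form -/
def sT (L : List (ℕ × ℕ × ℕ × ℤ)) (v : I27 → F) : F :=
  (L.map fun q => (q.2.2.2 : F) * (v (ix q.1) * v (ix q.2.1) * v (ix q.2.2.1))).sum

/-- its first polarisation -/
def sD (L : List (ℕ × ℕ × ℕ × ℤ)) (v w : I27 → F) : F :=
  (L.map fun q => (q.2.2.2 : F) * (v (ix q.1) * v (ix q.2.1) * w (ix q.2.2.1) +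
    v (ix q.1) * v (ix q.2.2.1) * w (ix q.2.1) + v (ix q.2.1) * v (ix q.2.2.1) * w (ix q.1))).sum

/-- the trilinear form -/
def sF (L : List (ℕ × ℕ × ℕ × ℤ)) (u v w : I27 → F) : F :=
  (L.map fun q => (q.2.2.2 : F) * (u (ix q.1) * v (ix q.2.1) * w (ix q.2.2.1) + u (ix q.2.1) * v (ix q.1) * w (ix q.2.2.1) +
    u (ix q.1) * v (ix q.2.2.1) * w (ix q.2.1) + u (ix q.2.2.1) * v (ix q.1) * w (ix q.2.1) +
    u (ix q.2.1) * v (ix q.2.2.1) * w (ix q.1) + u (ix q.2.2.1) * v (ix q.2.1) * w (ix q.1))).sum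

theorem cubic_eq (v : I27 → F) : cubicT v = sT Tri v := by
  change _ = ((1 : ℤ) : F) * (v (0, 0, 0) * v (0, 1, 1) * v (0, 2, 2)) + (((-1 : ℤ) : F) * (v (0, 0, 0) * v (0, 1, 2) * v (0, 2, 1)) + (((-1 : ℤ) : F) * (v (0, 0, 1) * v (0, 1, 0) * v (0, 2, 2)) + (((1 : ℤ) : F) * (v (0, 0, 1) * v (0, 1, 2) * v (0, 2, 0)) + (((1 : ℤ) : F) * (v (0, 0, 2) * v (0, 1, 0) * v (0, 2, 1)) + (((-1 : ℤ) : F) * (v (0, 0, 2) * v (0, 1, 1) * v (0, 2, 0)) + (((1 : ℤ) : F) * (v (1, 0, 0) * v (1, 1, 1) * v (1, 2, 2)) + (((-1 : ℤ) : F) * (v (1, 0, 0) * v (1, 1, 2) * v (1, 2, 1)) + (((-1 : ℤ) : F) * (v (1, 0, 1) * v (1, 1, 0) * v (1, 2, 2)) + (((1 : ℤ) : F) * (v (1, 0, 1) * v (1, 1, 2) * v (1, 2, 0)) + (((1 : ℤ) : F) * (v (1, 0, 2) * v (1, 1, 0) * v (1, 2, 1)) + (((-1 : ℤ) : F) * (v (1, 0, 2) * v (1, 1, 1) * v (1, 2, 0)) + (((1 : ℤ) : F) * (v (2, 0, 0) * v (2, 1, 1) * v (2, 2, 2)) + (((-1 : ℤ) : F) * (v (2, 0, 0) * v (2, 1, 2) * v (2, 2, 1))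 + (((-1 : ℤ) : F) * (v (2, 0, 1) * v (2, 1, 0) * v (2, 2, 2)) + (((1 : ℤ) : F) * (v (2, 0, 1) * v (2, 1, 2) * v (2, 2, 0)) + (((1 : ℤ) : F) * (v (2, 0, 2) * v (2, 1, 0) * v (2, 2, 1)) + (((-1 : ℤ) : F) * (v (2, 0, 2) * v (2, 1, 1) * v (2, 2, 0)) + (((-1 : ℤ) : F) * (v (0, 0, 0) * v (1, 0, 0) * v (2, 0, 0)) + (((-1 : ℤ) : F) * (v (0, 0, 0) * v (1, 0, 1) * v (2, 1, 0)) + (((-1 : ℤ) : F) * (v (0, 0, 0) * v (1, 0, 2) * v (2, 2, 0)) + (((-1 : ℤ) : F) * (v (0, 0, 1) * v (1, 1, 0) * v (2, 0, 0)) + (((-1 : ℤ) : F) * (v (0, 0, 1) * v (1, 1, 1) * v (2, 1, 0)) + (((-1 : ℤ) : F) * (v (0, 0, 1) * v (1, 1, 2) * v (2, 2, 0)) + (((-1 : ℤ) : F) * (v (0, 0, 2) * v (1, 2, 0) * v (2, 0, 0)) + (((-1 : ℤ) : F) * (v (0, 0, 2) * v (1, 2, 1) * v (2, 1, 0)) + (((-1 : ℤ) : F) * (v (0, 0, 2) * v (1, 2, 2) * v (2, 2, 0)) + (((-1 : ℤ) : F) * (v (0, 1, 0) * v (1, 0, 0) * v (2, 0, 1)) + (((-1 : ℤ) : F) * (v (0, 1, 0) * v (1, 0, 1) * v (2, 1, 1)) + (((-1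 : ℤ) : F) * (v (0, 1, 0) * v (1, 0, 2) * v (2, 2, 1)) + (((-1 : ℤ) : F) * (v (0, 1, 1) * v (1, 1, 0) * v (2, 0, 1)) + (((-1 : ℤ) : F) * (v (0, 1, 1) * v (1, 1, 1) * v (2, 1, 1)) + (((-1 : ℤ) : F) * (v (0, 1, 1) * v (1, 1, 2) * v (2, 2, 1)) + (((-1 : ℤ) : F) * (v (0, 1, 2) * v (1, 2, 0) * v (2, 0, 1)) + (((-1 : ℤ) : F) * (v (0, 1, 2) * v (1, 2, 1) * v (2, 1, 1)) + (((-1 : ℤ) : F) * (v (0, 1, 2) * v (1, 2, 2) * v (2, 2, 1)) + (((-1 : ℤ) : F) * (v (0, 2, 0) * v (1, 0, 0) * v (2, 0, 2)) + (((-1 : ℤ) : F) * (v (0, 2, 0) * v (1, 0, 1) * v (2, 1, 2)) + (((-1 : ℤ) : F) * (v (0, 2, 0) * v (1, 0, 2) * v (2, 2, 2)) + (((-1 : ℤ) : F) * (v (0, 2, 1) * v (1, 1, 0) * v (2, 0, 2)) + (((-1 : ℤ) : F) * (v (0, 2, 1) * v (1, 1, 1) * v (2, 1, 2)) + (((-1 : ℤ) : F) * (v (0, 2, 1) * v (1, 1, 2) * v (2, 2, 2)) + (((-1 : ℤ) : F) * (v (0, 2, 2) * v (1, 2, 0) * v (2, 0, 2)) + (((-1 : ℤ) : F) * (v (0, 2, 2) * v (1, 2, 1) * v (2, 1, 2)) + (((-1 :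 ℤ) : F) * (v (0, 2, 2) * v (1, 2, 2) * v (2, 2, 2)) + 0))))))))))))))))))))))))))))))))))))))))))))
  simp only [cubicT, mat3, det_fin_three, trace, diag, mul_apply, Fin.sum_univ_three, of_apply]
  push_cast
  ring

section L
variable (L : List (ℕ × ℕ × ℕ × ℤ))

theorem sT_add (v w : I27 → F) (t : F) :
    sT L (v + t • w) = sT L v + t * sD L v w + t ^ 2 * sD L w v + t ^ 3 * sT L w := by
  induction L with
  | nil => simp [sT, sD]
  | cons q L ih =>
    simp only [sT, sD, List.map_cons, List.sum_cons, Pi.add_apply, Pi.smul_apply, smul_eq_mul] at ih ⊢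
    linear_combination ih

theorem sD_add (u v w : I27 → F) : sD L (u + v) w = sD L u w + sD L v w + sF L u v w := by
  induction L with
  | nil => simp [sF, sD]
  | cons q L ih =>
    simp only [sF, sD, List.map_cons, List.sum_cons, Pi.add_apply] at ih ⊢
    linear_combination ih

theorem sF_swap (u v w : I27 → F) : sF L u v w = sF L u w v := by
  unfold sF; congr 2; funext q; ring

theorem sF_lin (u v : I27 → F) : IsLinearMap F (sF L u v) := by
  induction L with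
  | nil => exact ⟨by simp [sF], by simp [sF]⟩
  | cons q L ih =>
    refine ⟨fun a b => ?_, fun a b => ?_⟩
    · have := ih.1 a b
      simp only [sF, List.map_cons, List.sum_cons, Pi.add_apply] at this ⊢
      linear_combination this
    · have := ih.2 a b
      simp only [sF, List.map_cons, List.sum_cons, Pi.smul_apply, smul_eq_mul] at this ⊢
      linear_combination this

theorem sF_zero {u v : I27 → F} (h : ∀ l < 27, sF L u v (e F l) = 0) (w : I27 → F) : sF L u v w = 0 := by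
  have : (sF_lin L u v).mk' = 0 := LinearMap.pi_ext' fun a => LinearMap.ext_ring (by
    simpa [e, ix_xi] using h _ (xi_lt a))
  exact congrArg (· w) this

noncomputable def dl (a k : ℕ) : Bool := Nat.beq (Nat.mod a 27) (Nat.mod k 27)

theorem e_dl (k m : ℕ) : e F k (ix m) = if dl m k = true then 1 else 0 := by simp [e_apply, dl, nmod_eq]

noncomputable def sel {α : Type} (p : Bool) (x : α) (l : List α) : List α := Bool.rec l (x :: l) p

theorem sum_sel {α : Type} (p : Bool) (x : α) (l : List α) (f : α → F) :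
    ((sel p x l).map f).sum = (if p = true then 1 else 0) * f x + (l.map f).sum := by cases p <;> simp [sel]

theorem ite_band (a b : Bool) : (if band a b = true then 1 else 0 : F) =
    (if a = true then 1 else 0) * if b = true then 1 else 0 := by cases a <;> cases b <;> simp [band]

noncomputable def prL (k l : ℕ) : List (ℕ × ℤ) := List.rec [] (fun q _ ih =>
  sel (band (dl q.1 k) (dl q.2.1 l)) (q.2.2.1, q.2.2.2) <| sel (band (dl q.2.1 k) (dl q.1 l)) (q.2.2.1, q.2.2.2) <|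
  sel (band (dl q.1 k) (dl q.2.2.1 l)) (q.2.1, q.2.2.2) <| sel (band (dl q.2.2.1 k) (dl q.1 l)) (q.2.1, q.2.2.2) <|
  sel (band (dl q.2.1 k) (dl q.2.2.1 l)) (q.1, q.2.2.2) <| sel (band (dl q.2.2.1 k) (dl q.2.1 l)) (q.1, q.2.2.2) ih) L

theorem sF_prL (k l : ℕ) (w : I27 → F) :
    sF L (e F k) (e F l) w = ((prL L k l).map fun p => (p.2 : F) * w (ix p.1)).sum := by
  induction L with
  | nil => simp [sF, prL]
  | cons q L ih =>
    simp only [sF, prL, List.map_cons, List.sum_cons, sum_sel, ite_band, e_dl] at ih ⊢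
    linear_combination ih

noncomputable def ptL (l : ℕ) : List (ℕ × ℕ × ℤ) := List.rec [] (fun q _ ih =>
  sel (dl q.2.2.1 l) (q.1, q.2.1, q.2.2.2) <| sel (dl q.2.1 l) (q.1, q.2.2.1, q.2.2.2) <|
  sel (dl q.1 l) (q.2.1, q.2.2.1, q.2.2.2) ih) L

theorem sD_ptL (l : ℕ) (v : I27 → F) :
    sD L v (e F l) = ((ptL L l).map fun p => (p.2.2 : F) * (v (ix p.1) * v (ix p.2.1))).sum := by
  induction L with
  | nil => simp [sD, ptL]
  | cons q L ih =>
    simp only [sD, ptL, List.map_cons, List.sum_cons, sum_sel, e_dl] at ih ⊢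
    linear_combination ih

/-- code of an unordered triple -/
def cd3 (i j l : ℕ) : ℕ := min i (min j l) + 27 * (i + j + l - min i (min j l) - max i (max j l)) + 729 * max i (max j l)

def mono (v : I27 → F) (k : ℕ) (_ : Unit) : F := v (ix k) * v (ix (k / 27)) * v (ix (k / 729))

theorem mono_cd3 (v : I27 → F) (i j l : ℕ) :
    mono v (cd3 (i % 27) (j % 27) (l % 27)) () = v (ix i) * v (ix j) * v (ix l) := by
  have key : ∀ a b c, a < 27 → b < 27 → c < 27 → mono v (a + 27 * b + 729 * c) () = v (ix a) * v (ix b) * v (ix c) :=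
    fun a b c _ _ _ => by
      rw [mono, ix_eq_iff.2 (show _ = a % 27 by omega), ix_eq_iff.2 (show _ / 27 % 27 = b % 27 by omega),
        ix_eq_iff.2 (show _ / 729 % 27 = c % 27 by omega)]
  rw [← ix_mod i, ← ix_mod j, ← ix_mod l]
  have hi := Nat.mod_lt i (show 0 < 27 by omega)
  have hj := Nat.mod_lt j (show 0 < 27 by omega)
  have hl := Nat.mod_lt l (show 0 < 27 by omega)
  generalize i % 27 = i, j % 27 = j, l % 27 = l at *
  rw [cd3, key _ _ _ (by omega) (by omega) (by omega)]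
  rcases le_total i j with h1 | h1 <;> rcases le_total j l with h2 | h2 <;> rcases le_total i l with h3 | h3 <;>
    simp only [h1, h2, h3, min_eq_left, min_eq_right, max_eq_left, max_eq_right]
  all_goals first
    | (rw [show i + j + l - i - l = j by omega] <;> ring)
    | (rw [show i + j + l - i - j = l by omega] <;> ring)
    | (rw [show i + j + l - j - l = i by omega] <;> ring)
    | (rw [show i + j + l - j - i = l by omega] <;> ring)
    | (rw [show i + j + l - l - i = j by omega] <;> ring)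
    | (rw [show i + j + l - l - j = i by omega] <;> ring)
    | (obtain rfl : i = j := (by omega); obtain rfl : i = l := (by omega); simp)

noncomputable def add1 (i j c : ℕ) (s : ℤ) (acc : List Tm) : List Tm := forceL c fun c =>
  Bool.rec (ins0 (cd3 (i % 27) (j % 27) (tv c % 27)) (Int.mul s (sg c)) 0 0 acc) acc (Nat.beq c 0)

theorem ev_add1 (v : I27 → F) (i j c : ℕ) (s : ℤ) (acc : List Tm) : ev (mono v) 1 1 (add1 i j c s acc) () =
    s * (v (ix i) * v (ix j) * vl c v) + ev (mono v) 1 1 acc () := by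
  rw [add1, forceL_eq, brec_beq, vl]
  split_ifs
  · simp
  · rw [ev_ins0, Pi.add_apply, Pi.smul_apply, mono_cd3, imul_eq]; simp; ring

noncomputable def LD (r : ℕ) : List Tm := List.rec [] (fun q _ ih => add1 q.1 q.2.1 (tc r q.2.2.1) q.2.2.2 <|
  add1 q.1 q.2.2.1 (tc r q.2.1) q.2.2.2 <| add1 q.2.1 q.2.2.1 (tc r q.1) q.2.2.2 ih) L

theorem ev_LD {r : ℕ} (hr : r < 72) (v : I27 → F) : ev (mono v) 1 1 (LD L (ng r)) () = sD L v (Em F r *ᵥ v) := by
  induction L with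
  | nil => simp [sD, LD, ev]
  | cons q L ih =>
    simp only [sD, LD, List.map_cons, List.sum_cons, ev_add1, Em_apply hr] at ih ⊢
    linear_combination ih

end L

theorem chk_pr : (allLt 27 fun k => allLt 27 fun l => forceB (th k l) fun c =>
    beqCh (prL Tri k l) (Bool.rec [(tv c, sg c)] [] (Nat.beq c 0))) = true := by decide +kernel

theorem sF_e {k l : ℕ} (hk : k < 27) (hl : l < 27) (w : I27 → F) : sF Tri (e F k) (e F l) w = vl (th k l) w := by
  have := allLt_iff.1 (allLt_iff.1 chk_pr k hk) l hl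
  rw [forceB_eq, beqCh_iff, brec_beq] at this
  rw [sF_prL, this, vl]
  split_ifs <;> simp

theorem chk_inv : (allLt 72 fun r => band (isNil (LD Tri r)) <| allL Tri fun q =>
    bor (band (Nat.beq (tc r q.1) 0) (bor (Nat.beq (tc r q.2.1) 0) (Nat.beq (tc r q.2.2.1) 0)))
      (band (Nat.beq (tc r q.2.1) 0) (Nat.beq (tc r q.2.2.1) 0))) = true := by decide +kernel

theorem X_inv {r : ℕ} (hr : r < 72) (t : F) (v : I27 → F) : cubicT (X r t *ᵥ v) = cubicT v := by
  have := allLt_iff.1 chk_inv _ (ng_lt r)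
  simp only [band_iff, bor_iff, allL_iff, isNil_iff, Nat.beq_eq] at this
  have h1 := ev_LD Tri hr v
  rw [this.1] at h1
  have h2 : sD Tri (Em F r *ᵥ v) v = 0 := List.sum_eq_zero fun x hx => by
    obtain ⟨q, hq, rfl⟩ := List.mem_map.1 hx
    rcases this.2 q hq with ⟨a, b | b⟩ | ⟨a, b⟩ <;> simp [Em_apply hr, vl, a, b]
  have h3 : sT Tri (Em F r *ᵥ v) = 0 := List.sum_eq_zero fun x hx => by
    obtain ⟨q, hq, rfl⟩ := List.mem_map.1 hx
    rcases this.2 q hq with ⟨a, -⟩ | ⟨a, -⟩ <;> simp [Em_apply hr, vl, a]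
  rw [X, add_mulVec, smul_mulVec, one_mulVec, cubic_eq, cubic_eq, sT_add, ← h1, h2, h3]
  simp [ev]

end H24.C27
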