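import Cfsg.Agent.H24.C27b

/-! The isometry group of the cubic form is generated by the root elements. -/

set_option linter.unusedSectionVars false
set_option maxHeartbeats 400000
set_option maxRecDepth 100000

namespace H24.C27
open Matrix Cfsg.Lie

variable {F : Type*} [Field F]

theorem mem_I {g : GL I27 F} : g ∈ E6univ F ↔ ∀ v, cubicT (g.1 *ᵥ v) = cubicT v := Iff.rfl

theorem Gr_le : (st F).Gr ≤ E6univ F := (st F).XS_le.2 fun r _ t => mem_I.2 (X_inv r.2 t)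

theorem mv_surj (g : GL I27 F) (w : I27 → F) : ∃ v, g.1 *ᵥ v = w := ⟨g⁻¹.1 *ᵥ w, by simp [mulVec_mulVec]⟩

theorem tri_ne : ∀ q ∈ Tri, q.1 % 27 ≠ q.2.1 % 27 ∧ q.1 % 27 ≠ q.2.2.1 % 27 ∧ q.2.1 % 27 ≠ q.2.2.1 % 27 := by
  decide +kernel

theorem sD_e (a : ℕ) (w : I27 → F) : sD Tri (e F a) w = 0 := List.sum_eq_zero fun x hx => by
  obtain ⟨q, hq, rfl⟩ := List.mem_map.1 hx
  have := tri_ne q hq
  simp only [e_apply]
  split_ifs <;> first | omega | simp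

/-- the value of the coroot of `r` on the weight `k` -/
def wA (r k : ℕ) : ℤ := if tc (ng r) k ≠ 0 then 1 else if tc r k ≠ 0 then -1 else 0

theorem h_pair {A B : Matrix I27 I27 F} {p q : I27 → F} {s : F} (hs : s * s = 1) (h1 : A *ᵥ p = 0) (h2 : A *ᵥ q = s • p)
    (h3 : B *ᵥ p = s • q) (h4 : B *ᵥ q = 0) {t : F} (ht : t ≠ 0) :
    ((1 + t • A) * (1 + -t⁻¹ • B) * (1 + t • A)) *ᵥ p = -(t⁻¹ * s) • q ∧
      ((1 + t • A) * (1 + -t⁻¹ • B) * (1 + t • A)) *ᵥ q = (t * s) • p := by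
  simp only [← mulVec_mulVec, add_mulVec, smul_mulVec, one_mulVec, mulVec_add, mulVec_smul, h1, h2, h3, h4,
    mulVec_zero, smul_zero, add_zero]
  have e := mul_inv_cancel₀ ht
  constructor <;> match_scalars
  · linear_combination -s * s * e - hs
  · ring
  · linear_combination -s * s * e - hs
  · linear_combination -t * s * s * s * e - t * s * hs

theorem h_e (r : Fin chevE6.nroots) {t : F} (ht : t ≠ 0) (k : ℕ) :
    ((st F).h r t).1 *ᵥ e F k = t ^ wA r k • e F k := by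
  have hr : (r : ℕ) < 72 := r.2
  have hn : ∀ t, ((st F).n r t).1 = (1 + t • Em F r) * (1 + -t⁻¹ • Em F (ng r)) * (1 + t • Em F r) := fun t => by
    simp only [St0.n, Units.val_mul, coe_x, val_neg, X]
  rw [St0.h, Units.val_mul, ← mulVec_mulVec, hn, hn, wA]
  split_ifs with h h'
  · obtain ⟨-, a1, a2, a3, a4, a5⟩ := tc_sp (ng_lt r) h
    rw [ng_ng hr] at a1 a3 a4 a5
    have := fun t => h_pair (A := Em F r) (B := Em F (ng r)) (p := e F k) (q := e F (tv (tc (ng r) k)))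
      (sg_sq (tc (ng r) k)) (by simp [Em_e, ve, a1]) (by simp [Em_e, ve, a3, a4, a5, e_mod]) (by simp [Em_e, ve, h])
      (by simp [Em_e, ve, a2]) (t := t)
    rw [(this _ (by simp)).1, mulVec_smul, (this _ ht).2, smul_smul, zpow_one]
    congr 1
    linear_combination (exp := 1) t * sg_sq (F := F) (tc (ng r) k)
  · obtain ⟨-, a1, a2, a3, a4, a5⟩ := tc_sp hr h'
    have := fun t => h_pair (A := Em F r) (B := Em F (ng r)) (q := e F k) (p := e F (tv (tc r k)))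
      (sg_sq (tc r k)) (by simp [Em_e, ve, a2]) (by simp [Em_e, ve, h']) (by simp [Em_e, ve, a3, a4, a5, e_mod])
      (by simp [Em_e, ve, a1]) (t := t)
    rw [(this _ (by simp)).2, mulVec_smul, (this _ ht).1, smul_smul, _root_.zpow_neg_one]
    congr 1
    linear_combination (exp := 1) t⁻¹ * sg_sq (F := F) (tc r k)
  · simp [← mulVec_mulVec, add_mulVec, smul_mulVec, neg_mulVec, Em_e, ve, not_not.1 h, not_not.1 h']

theorem exists_scale (rs : List ℕ) (hr : ∀ r ∈ rs, r < 72) {t : F} (ht : t ≠ 0) :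
    ∃ y ∈ (st F).Gr, ∀ k, y.1 *ᵥ e F k = t ^ (rs.map (wA · k)).sum • e F k := by
  induction rs with
  | nil => exact ⟨1, one_mem _, by simp⟩
  | cons r rs ih =>
    obtain ⟨y, hy, h⟩ := ih fun a ha => hr a (by simp [ha])
    refine ⟨(st F).h ⟨r, hr r (by simp)⟩ t * y, mul_mem ((st F).H_le_Gr ((st F).h_mem ht)) hy, fun k => ?_⟩
    rw [Units.val_mul, ← mulVec_mulVec, h, mulVec_smul, h_e _ ht, smul_smul, List.map_cons, List.sum_cons,
      zpow_add₀ ht, mul_comm]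

/-- `g` fixes the basis vectors in `K` -/
def Fix (K : List ℕ) (g : GL I27 F) : Prop := ∀ k ∈ K, g.1 *ᵥ e F k = e F k

variable (F) in
/-- isometries fixing `K` with a condition on the column `a` are generated by root elements -/
def Q (K : List ℕ) (a : ℕ) (φ : (I27 → F) → Prop) : Prop :=
  ∀ g ∈ E6univ F, Fix K g → φ (g.1 *ᵥ e F a) → g ∈ (st F).Gr

variable {K : List ℕ} {a : ℕ}

theorem Q.mul {φ ψ : (I27 → F) → Prop} (h : Q F K a ψ) (H : ∀ c, φ c → ∃ y ∈ (st F).Gr, Fix K y ∧ ψ (y.1 *ᵥ c)) :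
    Q F K a φ := fun g hg h1 h2 => by
  obtain ⟨y, a1, a2, a3⟩ := H _ h2
  exact (mul_mem_cancel_left a1).1 (h _ (mul_mem (Gr_le a1) hg)
    (fun k hk => by rw [Units.val_mul, ← mulVec_mulVec, h1 k hk, a2 k hk]) (by rwa [Units.val_mul, ← mulVec_mulVec]))

def fixR (K : List ℕ) (r : ℕ) : Prop := r < 72 ∧ ∀ k ∈ K, tc r k = 0

instance (K : List ℕ) (r : ℕ) : Decidable (fixR K r) := inferInstanceAs (Decidable (_ ∧ _))

theorem fixR.ex {r : ℕ} (h : fixR K r) (t : F) {ψ : (I27 → F) → Prop} {c : I27 → F} (H : ψ (X r t *ᵥ c)) :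
    ∃ y ∈ (st F).Gr, Fix K y ∧ ψ (y.1 *ᵥ c) :=
  ⟨(st F).x ⟨r, h.1⟩ t, (st F).x_mem_Gr _ _, fun k hk => by simp [coe_x, X_e, h.2 k hk, ve], H⟩

/-- moving a non-zero coordinate -/
def chkMv (K : List ℕ) : List (ℕ × ℕ × ℕ) → List ℕ → Prop
  | [], _ => True
  | m :: l, O => m.2.1 ∈ O ∧ fixR K m.2.2 ∧ tc (ng m.2.2) m.2.1 ≠ 0 ∧ tv (tc (ng m.2.2) m.2.1) = m.1 ∧ chkMv K l (m.1 :: O)

instance decMv (K : List ℕ) : ∀ l O, Decidable (chkMv K l O)
  | [], _ => inferInstanceAs (Decidable True)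
  | m :: l, O => haveI := decMv K l (m.1 :: O); inferInstanceAs (Decidable (_ ∧ _))

theorem chkMv.spec {l : List (ℕ × ℕ × ℕ)} {O : List ℕ} (h : chkMv K l O) (H : ∀ m ∈ O, Q F K a (· (ix m) ≠ 0)) :
    ∀ m, m ∈ O ∨ m ∈ l.map (·.1) → Q F K a (· (ix m) ≠ 0) := by
  induction l generalizing O with
  | nil => simpa using H
  | cons x l ih =>
    obtain ⟨h1, h2, h3, h4, h5⟩ := h
    have := ih h5 (List.forall_mem_cons.2 ⟨(H _ h1).mul fun c hc => by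
      by_cases e : c (ix x.2.1) = 0
      · exact h2.ex (ψ := (· (ix x.2.1) ≠ 0)) (1 : F) (by simp [X_apply h2.1, e, vl, h3, h4, hc, sg_ne])
      · exact ⟨1, one_mem _, fun _ _ => by simp, by simpa using e⟩, H⟩)
    intro m hm
    exact this m (by simp only [List.map_cons, List.mem_cons] at hm ⊢; tauto)

/-- killing coordinates -/
def chkKl (K : List ℕ) (a : ℕ) : List (ℕ × ℕ) → List ℕ → Prop
  | [], _ => True
  | m :: l, L => fixR K m.2 ∧ tc (ng m.2) m.1 ≠ 0 ∧ tv (tc (ng m.2) m.1) = a ∧ tc (ng m.2) a = 0 ∧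
    (∀ j ∈ L, tc (ng m.2) j = 0) ∧ chkKl K a l (m.1 :: L)

instance decKl (K : List ℕ) (a : ℕ) : ∀ l O, Decidable (chkKl K a l O)
  | [], _ => inferInstanceAs (Decidable True)
  | m :: l, O => haveI := decKl K a l (m.1 :: O); inferInstanceAs (Decidable (_ ∧ _))

theorem chkKl.spec {l : List (ℕ × ℕ)} {L : List ℕ} (h : chkKl K a l L)
    (H : Q F K a fun c => c (ix a) ≠ 0 ∧ ∀ j, j ∈ L ∨ j ∈ l.map (·.1) → c (ix j) = 0) :
    Q F K a fun c => c (ix a) ≠ 0 ∧ ∀ j ∈ L, c (ix j) = 0 := by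
  induction l generalizing L with
  | nil => simpa using H
  | cons x l ih =>
    obtain ⟨h1, h2, h3, h4, h5, h6⟩ := h
    refine (ih h6 (by simpa only [List.map_cons, List.mem_cons, or_assoc, or_left_comm] using H)).mul fun c hc =>
      h1.ex (ψ := fun c => c (ix a) ≠ 0 ∧ ∀ j ∈ x.1 :: L, c (ix j) = 0) (-(c (ix x.1) / (sg (tc (ng x.2) x.1) * c (ix a)))) ⟨by simpa [X_apply h1.1, vl, h4] using hc.1,
        List.forall_mem_cons.2 ⟨?_, fun j hj => by simpa [X_apply h1.1, vl, h5 j hj] using hc.2 j hj⟩⟩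
    rw [X_apply h1.1, vl, if_neg h2, h3, neg_mul, div_mul_cancel₀ _ (mul_ne_zero (sg_ne _) hc.1), add_neg_cancel]

theorem sum_filter' {α : Type} (p : α → Bool) (f : α → F) (l : List α) (h : ∀ x ∈ l, p x = false → f x = 0) :
    (l.map f).sum = ((l.filter p).map f).sum := by
  induction l with
  | nil => rfl
  | cons x l ih =>
    have := ih fun y hy => h y (by simp [hy])
    cases e : p x <;> simp [List.filter_cons, e, this, h x]

/-- a white vector is determined by its coordinates near a non-zero one -/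
def chkLW (a : ℕ) (L : List ℕ) : Prop := ∀ m < 27, m = a ∨ m ∈ L ∨ ∃ s ∈ [(1 : ℤ), -1],
  (ptL Tri (tv (th a m))).filter (fun p => decide (p.1 ∉ L ∧ p.2.1 ∉ L)) ∈ [[(a, m, s)], [(m, a, s)]]

theorem chkLW.spec {L : List ℕ} (h : chkLW a L) {c : I27 → F} (h1 : ∀ w, sD Tri c w = 0) (h2 : c (ix a) ≠ 0)
    (h3 : ∀ j ∈ L, c (ix j) = 0) : c = c (ix a) • e F a := by
  funext b
  rw [← ix_xi b, Pi.smul_apply, e_apply]
  by_cases e' : xi b % 27 = a % 27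
  · simp [e', ix_eq_iff.2 e']
  rw [if_neg e', smul_zero]
  rcases h _ (xi_lt b) with h | h | ⟨s, hs, h⟩
  · exact absurd (by rw [h]) e'
  · exact h3 _ h
  have := h1 (e F (tv (th a (xi b))))
  rw [sD_ptL, sum_filter' (fun p => decide (p.1 ∉ L ∧ p.2.1 ∉ L)) _ _ fun x _ hx => by
    rcases not_and_or.1 (of_decide_eq_false hx) with h | h <;> simp [h3 _ (not_not.1 h)]] at this
  have hs' : (s : F) ≠ 0 := by rcases (by simpa using hs : s = 1 ∨ s = -1) with rfl | rfl <;> simp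
  rcases (by simpa only [List.mem_cons, List.not_mem_nil, or_false] using h : _ = [(a, xi b, s)] ∨ _ = [(xi b, a, s)])
    with h | h <;> rw [h] at this <;> simpa [hs', h2] using this

/-- two fixed vectors lie on a triangle with `m` -/
def gam (K : List ℕ) (m : ℕ) : Prop := ∃ k ∈ K, ∃ k' ∈ K, th k k' ≠ 0 ∧ tv (th k k') = m

/-- the coordinate `m` of the column `a` vanishes -/
def zc (K : List ℕ) (a m : ℕ) : Prop := (∃ k ∈ K, th k a = 0 ∧ tv (th k m) < 27 ∧ th k (tv (th k m)) ≠ 0 ∧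
  tv (th k (tv (th k m))) = m) ∨ (m % 27 ≠ a % 27 ∧ gam K m)

/-- the data of one step -/
structure Step where
  a : ℕ
  Z : List ℕ
  md : ℕ
  mv : List (ℕ × ℕ × ℕ)
  kl : List (ℕ × ℕ)
  sc : List ℕ

def Step.Chk (s : Step) (K : List ℕ) : Prop := s.a < 27 ∧ (∀ m ∈ s.Z, zc K s.a m) ∧ chkMv K s.mv [s.a] ∧
  chkKl K s.a s.kl [] ∧ chkLW s.a (s.Z ++ s.kl.map (·.1)) ∧
  (gam K s.a ∨ (((∀ m < 27, m ∈ s.Z ∨ m = s.a ∨ m ∈ s.mv.map (·.1)) ∨ (s.md ∈ K ∧ th s.md s.a ≠ 0 ∧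
      tv (th s.md s.a) < 27 ∧ ∀ l < 27, th s.md l = 0 ∨ tv (th s.md l) = s.a ∨ tv (th s.md l) ∈ s.mv.map (·.1))) ∧
    (∀ r ∈ s.sc, r < 72) ∧ (∀ k ∈ K, (s.sc.map (wA · k)).sum = 0) ∧ (s.sc.map (wA · s.a)).sum = 1))

instance (K : List ℕ) (m : ℕ) : Decidable (gam K m) := by unfold gam; infer_instance
instance (K : List ℕ) (a m : ℕ) : Decidable (zc K a m) := by unfold zc; infer_instance
noncomputable instance (a : ℕ) (L : List ℕ) : Decidable (chkLW a L) := by unfold chkLW; infer_instance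
noncomputable instance (s : Step) (K : List ℕ) : Decidable (s.Chk K) := by unfold Step.Chk; infer_instance

def chkAll : List Step → List ℕ → Prop
  | [], K => ∀ m < 27, m ∈ K
  | s :: l, K => s.Chk K ∧ chkAll l (s.a :: K)

noncomputable instance decAll : ∀ l K, Decidable (chkAll l K)
  | [], _ => inferInstanceAs (Decidable (∀ m < 27, _))
  | s :: l, K => haveI := decAll l (s.a :: K); inferInstanceAs (Decidable (_ ∧ _))

def steps : List Step := [⟨0, [], 27, [(14, 0, 1), (17, 0, 2), (3, 0, 5), (23, 0, 11), (20, 0, 12), (6, 0, 16), (22, 0, 26), (19, 0, 27), (12, 0, 30), (13, 0, 31), (15, 0, 33), (16, 0, 34), (2, 0, 46), (1, 0, 47), (26, 0, 50), (25, 0, 61), (21, 14, 33), (18, 14, 34), (11, 14, 47), (5, 14, 50), (8, 14, 61), (4, 17, 50), (7, 17, 61), (24, 3, 61), (9, 23, 61), (10, 20, 61)], [(1, 24), (2, 25), (3, 66), (6, 55), (12, 41), (13, 40), (14, 70), (15, 38), (16, 37), (17,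 69), (19, 44), (20, 59), (22, 45), (23, 60), (25, 10), (26, 21)], [1]⟩,
  ⟨4, [], 0, [(21, 4, 17), (18, 4, 18), (11, 4, 28), (5, 4, 32), (7, 4, 56), (24, 4, 57), (9, 4, 62), (10, 4, 63), (8, 21, 63)], [(1, 5), (3, 47), (5, 39), (7, 15), (9, 9), (10, 8), (11, 43), (15, 12), (16, 11), (17, 50), (18, 53), (20, 33), (21, 54), (23, 34), (24, 14), (26, 2)], [17]⟩,
  ⟨8, [], 28, [], [(2, 16), (5, 56), (6, 46), (7, 32), (9, 18), (10, 17), (11, 57), (12, 27), (13, 26), (14, 61), (18, 62), (19, 30), (21, 63), (22, 31), (24, 28), (25, 1)], []⟩,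
  ⟨5, [0, 1, 2, 3, 4, 6, 8, 12, 13, 14, 15, 16, 17, 19, 20, 22, 23, 25, 26], 27, [(21, 5, 19), (18, 5, 20), (11, 5, 29), (24, 5, 58), (9, 5, 64), (10, 5, 65), (7, 21, 65)], [(9, 7), (10, 6), (11, 42), (18, 51), (21, 52), (24, 13)], [19]⟩,
  ⟨7, [0, 1, 2, 3, 4, 6, 8, 12, 13, 14, 15, 16, 17, 19, 20, 22, 23, 25, 26], 28, [], [(9, 20), (10, 19), (11, 58), (18, 64), (21, 65), (24, 29)], []⟩,
  ⟨9, [0, 1, 2, 3, 4, 5, 6, 7, 8, 12, 13, 14, 15, 16, 17, 19, 20, 22, 23, 25, 26], 27, [(21, 9, 0), (11, 9, 4), (24, 9, 23), (10, 9, 36), (18, 21, 36)], [(10, 35), (11, 67), (21, 71), (24, 48)], [0]⟩,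
  ⟨18, [0, 1, 2, 3, 4, 5, 6, 7, 8, 12, 13, 14, 15, 16, 17, 19, 20, 22, 23, 25, 26], 28, [], [(10, 0), (11, 23), (21, 36), (24, 4)], []⟩,
  ⟨10, [0, 1, 2, 3, 4, 5, 6, 7, 8, 9, 12, 13, 14, 15, 16, 17, 18, 19, 20, 22, 23, 25, 26], 27, [(11, 10, 3), (24, 10, 22), (21, 11, 22)], [(11, 68), (24, 49)], [3]⟩,
  ⟨21, [0, 1, 2, 3, 4, 5, 6, 7, 8, 9, 12, 13, 14, 15, 16, 17, 18, 19, 20, 22, 23, 25, 26], 28, [], [(11, 22), (24, 3)], []⟩,
  ⟨1, [0, 2, 3, 4, 5, 6, 7, 8, 9, 10, 11, 12, 13, 14, 15, 16, 17, 18, 19, 20, 21, 22, 23, 24, 25, 26], 27, [], [], [22, 68]⟩,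
  ⟨3, [0, 1, 2, 4, 5, 6, 7, 8, 9, 10, 11, 12, 13, 14, 15, 16, 17, 18, 19, 20, 21, 22, 23, 24, 25, 26], 28, [], [], []⟩,
  ⟨2, [0, 1, 3, 4, 5, 6, 7, 8, 9, 10, 11, 12, 13, 14, 15, 16, 17, 18, 19, 20, 21, 22, 23, 24, 25, 26], 28, [], [], []⟩,
  ⟨6, [0, 1, 2, 3, 4, 5, 7, 8, 9, 10, 11, 12, 13, 14, 15, 16, 17, 18, 19, 20, 21, 22, 23, 24, 25, 26], 28, [], [], []⟩,
  ⟨12, [0, 1, 2, 3, 4, 5, 6, 7, 8, 9, 10, 11, 13, 14, 15, 16, 17, 18, 19, 20, 21, 22, 23, 24, 25, 26], 28, [], [], []⟩,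
  ⟨13, [0, 1, 2, 3, 4, 5, 6, 7, 8, 9, 10, 11, 12, 14, 15, 16, 17, 18, 19, 20, 21, 22, 23, 24, 25, 26], 28, [], [], []⟩,
  ⟨15, [0, 1, 2, 3, 4, 5, 6, 7, 8, 9, 10, 11, 12, 13, 14, 16, 17, 18, 19, 20, 21, 22, 23, 24, 25, 26], 28, [], [], []⟩,
  ⟨11, [0, 1, 2, 3, 4, 5, 6, 7, 8, 9, 10, 12, 13, 14, 15, 16, 17, 18, 19, 20, 21, 22, 23, 24, 25, 26], 28, [], [], []⟩,
  ⟨24, [0, 1, 2, 3, 4, 5, 6, 7, 8, 9, 10, 11, 12, 13, 14, 15, 16, 17, 18, 19, 20, 21, 22, 23, 25, 26], 28, [], [], []⟩,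
  ⟨14, [0, 1, 2, 3, 4, 5, 6, 7, 8, 9, 10, 11, 12, 13, 15, 16, 17, 18, 19, 20, 21, 22, 23, 24, 25, 26], 28, [], [], []⟩,
  ⟨16, [0, 1, 2, 3, 4, 5, 6, 7, 8, 9, 10, 11, 12, 13, 14, 15, 17, 18, 19, 20, 21, 22, 23, 24, 25, 26], 28, [], [], []⟩,
  ⟨17, [0, 1, 2, 3, 4, 5, 6, 7, 8, 9, 10, 11, 12, 13, 14, 15, 16, 18, 19, 20, 21, 22, 23, 24, 25, 26], 28, [], [], []⟩,
  ⟨19, [0, 1, 2, 3, 4, 5, 6, 7, 8, 9, 10, 11, 12, 13, 14, 15, 16, 17, 18, 20, 21, 22, 23, 24, 25, 26], 28, [], [], []⟩,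
  ⟨20, [0, 1, 2, 3, 4, 5, 6, 7, 8, 9, 10, 11, 12, 13, 14, 15, 16, 17, 18, 19, 21, 22, 23, 24, 25, 26], 28, [], [], []⟩,
  ⟨22, [0, 1, 2, 3, 4, 5, 6, 7, 8, 9, 10, 11, 12, 13, 14, 15, 16, 17, 18, 19, 20, 21, 23, 24, 25, 26], 28, [], [], []⟩,
  ⟨23, [0, 1, 2, 3, 4, 5, 6, 7, 8, 9, 10, 11, 12, 13, 14, 15, 16, 17, 18, 19, 20, 21, 22, 24, 25, 26], 28, [], [], []⟩,
  ⟨25, [0, 1, 2, 3, 4, 5, 6, 7, 8, 9, 10, 11, 12, 13, 14, 15, 16, 17, 18, 19, 20, 21, 22, 23, 24, 26], 28, [], [], []⟩,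
  ⟨26, [0, 1, 2, 3, 4, 5, 6, 7, 8, 9, 10, 11, 12, 13, 14, 15, 16, 17, 18, 19, 20, 21, 22, 23, 24, 25], 28, [], [], []⟩]

theorem chk_steps : chkAll steps [] := by decide +kernel

variable (hF : ∃ a : F, a ≠ 0 ∧ a ≠ 1)
include hF

theorem sD_inv {g : GL I27 F} (hg : g ∈ E6univ F) (v w : I27 → F) : sD Tri (g.1 *ᵥ v) (g.1 *ᵥ w) = sD Tri v w := by
  obtain ⟨a, h0, h1⟩ := hF
  have h := fun v => mem_I.1 hg v
  simp only [cubic_eq] at h
  have k := fun t : F => h (v + t • w)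
  simp only [mulVec_add, mulVec_smul, sT_add, h] at k
  refine mul_left_cancel₀ (mul_ne_zero h0 (sub_ne_zero.2 h1)) ?_
  linear_combination a ^ 2 * k 1 - k a

theorem sF_inv {g : GL I27 F} (hg : g ∈ E6univ F) (u v w : I27 → F) :
    sF Tri (g.1 *ᵥ u) (g.1 *ᵥ v) (g.1 *ᵥ w) = sF Tri u v w := by
  have := sD_inv hF hg (u + v) w
  simpa only [mulVec_add, sD_add, sD_inv hF hg, add_right_inj] using this

variable (hK : ∀ k ∈ K, k < 27) {g : GL I27 F} (hg : g ∈ E6univ F) (hf : Fix K g)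
include hK hg hf

theorem gam.spec {m : ℕ} (h : gam K m) (a : ℕ) : (g.1 *ᵥ e F a) (ix m) = e F a (ix m) := by
  obtain ⟨k, hk, l, hl, h1, h2⟩ := h
  have := sF_inv hF hg (e F k) (e F l) (e F a)
  rw [hf k hk, hf l hl, sF_e (hK k hk) (hK l hl), sF_e (hK k hk) (hK l hl), vl, vl, if_neg h1, if_neg h1, h2] at this
  exact mul_left_cancel₀ (sg_ne _) this

theorem zc.spec {m : ℕ} (ha : a < 27) (h : zc K a m) : (g.1 *ᵥ e F a) (ix m) = 0 := by
  rcases h with ⟨k, hk, h1, h2, h3, h4⟩ | ⟨h1, h2⟩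
  · obtain ⟨w, hw⟩ := mv_surj g (e F (tv (th k m)))
    have := sF_inv hF hg (e F k) (e F a) w
    rw [hf k hk, hw, sF_e (hK k hk) ha, h1, sF_swap, sF_e (hK k hk) h2, vl, if_neg h3, h4] at this
    simpa [vl, sg_ne] using this
  · rw [h2.spec hF hK hg hf, e_apply, if_neg h1]

omit hg hf in
theorem Step.Chk.spec {s : Step} (h : s.Chk K) (H : Q F (s.a :: K) 0 fun _ => True) : Q F K 0 fun _ => True := by
  obtain ⟨h1, h2, h3, h4, h5, h6⟩ := h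
  have a1 : Q F K s.a (· = e F s.a) := fun g hg hf e => H g hg (List.forall_mem_cons.2 ⟨e, hf⟩) trivial
  have a2 : Q F K s.a fun c => c (ix s.a) ≠ 0 ∧ ∀ j, j ∈ [] ∨ j ∈ s.kl.map (·.1) → c (ix j) = 0 := fun g hg hf hc => by
    have := h5.spec (fun w => by obtain ⟨w, rfl⟩ := mv_surj g w; rw [sD_inv hF hg, sD_e]) hc.1 fun j hj =>
      (List.mem_append.1 hj).elim (fun h => (h2 j h).spec hF hK hg hf h1) fun h => hc.2 j (.inr h)
    rcases h6 with h | ⟨-, b1, b2, b3⟩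
    · exact a1 g hg hf (by rw [this, h.spec hF hK hg hf, e_apply]; simp)
    refine a1.mul (φ := fun c => ∃ t ≠ 0, c = t • e F s.a) ?_ g hg hf ⟨_, hc.1, this⟩
    rintro _ ⟨t, ht, rfl⟩
    obtain ⟨y, hy, c1⟩ := exists_scale _ b1 (inv_ne_zero ht)
    exact ⟨y, hy, fun k hk => by simp [c1, b2 k hk], by simp [mulVec_smul, c1, b3, ht]⟩
  have a3 := h3.spec (a := s.a) (F := F) (by simpa using h4.spec a2)
  intro g hg hf _
  by_contra hc
  have a4 : ∀ m, m = s.a ∨ m ∈ s.mv.map (·.1) → (g.1 *ᵥ e F s.a) (ix m) = 0 := fun m hm =>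
    by_contra fun h => hc (a3 m (by simpa using hm) g hg hf h)
  rcases h6 with h | ⟨h | ⟨b1, b2, b3, b4⟩, -⟩
  · simpa [h.spec hF hK hg hf, e_apply] using a4 _ (.inl rfl)
  · have : g.1 *ᵥ e F s.a = 0 := funext fun b => by
      rw [← ix_xi b]
      exact (h _ (xi_lt b)).elim (fun h => (h2 _ h).spec hF hK hg hf h1) (a4 _)
    have := congrArg (fun v => (g⁻¹.1 *ᵥ v) (ix s.a)) this
    simp [mulVec_mulVec, e_apply] at this
  · have := sF_inv hF hg (e F s.md) (e F s.a) (e F (tv (th s.md s.a)))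
    rw [hf _ b1, sF_zero Tri fun l hl => by
      rw [sF_swap, sF_e (hK _ b1) hl, vl]
      rcases b4 l hl with h | h
      exacts [if_pos h, by simp [a4 _ h]], sF_e (hK _ b1) h1, vl, if_neg b2, e_apply] at this
    simpa [sg_ne] using this.symm

omit hg hf in
theorem chkAll.spec {l : List Step} (h : chkAll l K) : Q F K 0 fun _ => True := by
  induction l generalizing K with
  | nil =>
    intro g _ hf _
    rw [show g = 1 from Units.ext (ext_single fun b => by simpa only [e, ix_xi, Units.val_one, one_mulVec] using hf _ (h _ (xi_lt b)))]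
    exact one_mem _
  | cons s l ih => exact h.1.spec hF hK (ih (List.forall_mem_cons.2 ⟨h.1.1, hK⟩) h.2)

omit hK hg hf in
theorem Gr_eq : (st F).Gr = E6univ F :=
  le_antisymm Gr_le fun g hg => chk_steps.spec hF (by simp) g hg (by simp [Fix]) trivial

end H24.C27
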