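import Cfsg.Agent.H26.Rv1

/-! Decomposition step for invariant bilinear forms in coprime characteristic. -/

set_option autoImplicit false
set_option maxHeartbeats 400000

namespace H24.Dec

open Cfsg H17 H19 H26Rv Subgroup

universe u

variable {p : ℕ} [Fact p.Prime] {H : Type u} [Group H] [Finite H] {O : ValuationSubring ℂ}

theorem mas (hp : ¬ p ∣ Nat.card H) {U : Type u} [AddCommGroup U] [Module (ZMod p) U]
    (ρ : Representation (ZMod p) H U) (K : Submodule (ZMod p) U) (hK : St ρ K) :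
    ∃ P : U →ₗ[ZMod p] U, (∀ x, P x ∈ K) ∧ (∀ x ∈ K, P x = x) ∧
      ∀ h x, P (ρ h x) = ρ h (P x) := by
  classical
  haveI := Fintype.ofFinite H
  obtain ⟨g, hg⟩ := LinearMap.exists_leftInverse_of_injective K.subtype K.ker_subtype
  have hg' : ∀ x ∈ K, ((g x : K) : U) = x := fun x hx => by
    have := LinearMap.congr_fun hg ⟨x, hx⟩
    simpa using congrArg Subtype.val this
  have hc : ((Fintype.card H : ℕ) : ZMod p) ≠ 0 := by
    rw [Ne, ZMod.natCast_eq_zero_iff, ← Nat.card_eq_fintype_card]; exact hp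
  have hmul : ∀ (a b : H) (x : U), ρ a (ρ b x) = ρ (a * b) x := fun a b x => by
    rw [map_mul]; rfl
  refine ⟨((Fintype.card H : ℕ) : ZMod p)⁻¹ • ∑ h : H, (ρ h⁻¹) ∘ₗ (K.subtype ∘ₗ g) ∘ₗ (ρ h),
    fun x => ?_, fun x hx => ?_, fun h x => ?_⟩
  · simp only [LinearMap.smul_apply, LinearMap.sum_apply, LinearMap.comp_apply]
    exact K.smul_mem _ (K.sum_mem fun h _ => hK _ _ (g _).2)
  · simp only [LinearMap.smul_apply, LinearMap.sum_apply, LinearMap.comp_apply,
      Submodule.subtype_apply]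
    have : ∀ h : H, ρ h⁻¹ ((g (ρ h x) : K) : U) = x := fun h => by
      rw [hg' _ (hK h x hx), hmul, inv_mul_cancel, map_one]; rfl
    rw [Finset.sum_congr rfl fun h _ => this h, Finset.sum_const, Finset.card_univ,
      ← Nat.cast_smul_eq_nsmul (ZMod p), smul_smul, inv_mul_cancel₀ hc, one_smul]
  · simp only [LinearMap.smul_apply, LinearMap.sum_apply, LinearMap.comp_apply,
      Submodule.subtype_apply, map_smul, map_sum]
    congr 1
    refine Fintype.sum_equiv (Equiv.mulRight h) _ _ fun k => ?_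
    simp only [Equiv.coe_mulRight]
    rw [hmul k h x, hmul h, mul_inv_rev, mul_inv_cancel_left]

theorem surj {F V : Type*} [Field F] [AddCommGroup V] [Module F V] [FiniteDimensional F V]
    (β : V →ₗ[F] V →ₗ[F] F) (hn : ∀ x, (∀ y, β x y = 0) → x = 0) (f : V →ₗ[F] F) :
    ∃ y, ∀ x, β x y = f x := by
  have hi : Function.Injective β := by
    rw [← LinearMap.ker_eq_bot, LinearMap.ker_eq_bot']
    exact fun x hx => hn x fun y => by rw [hx]; rfl
  obtain ⟨y, hy⟩ := (LinearMap.flip_surjective_iff₁.2 hi) f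
  exact ⟨y, fun x => by rw [← hy]; rfl⟩

/-- right orthogonal -/
def orth {F V : Type*} [Field F] [AddCommGroup V] [Module F V]
    (β : V →ₗ[F] V →ₗ[F] F) (K : Submodule F V) : Submodule F V where
  carrier := {y | ∀ x ∈ K, β x y = 0}
  add_mem' := fun {a b} ha hb x hx => by rw [map_add, ha x hx, hb x hx, add_zero]
  zero_mem' := fun x _ => map_zero _
  smul_mem' := fun c a ha x hx => by rw [map_smul, ha x hx, smul_zero]

theorem mem_orth {F V : Type*} [Field F] [AddCommGroup V] [Module F V]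
    {β : V →ₗ[F] V →ₗ[F] F} {K : Submodule F V} {y : V} :
    y ∈ orth β K ↔ ∀ x ∈ K, β x y = 0 := Iff.rfl

theorem st_orth {U : Type u} [AddCommGroup U] [Module (ZMod p) U]
    {ρ : Representation (ZMod p) H U} {β : U →ₗ[ZMod p] U →ₗ[ZMod p] ZMod p} (hβ : Inv ρ β)
    {K : Submodule (ZMod p) U} (hK : St ρ K) : St ρ (orth β K) := by
  intro h y hy x hx
  have e : ρ h (ρ h⁻¹ x) = x := by
    have : ρ h (ρ h⁻¹ x) = ρ (h * h⁻¹) x := by rw [map_mul]; rfl
    rw [this, mul_inv_cancel, map_one]; rfl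
  rw [← e, hβ]
  exact hy _ (hK _ _ hx)

theorem dec (hp : ¬ p ∣ Nat.card H) : DecP p H := by
  intro U _ _ _ ρ β hβ hn M hM hb ht ha
  haveI : FiniteDimensional (ZMod p) U := Module.Finite.of_finite
  have hO := st_orth hβ hM
  by_cases h0 : M ⊓ orth β M = ⊥
  · have hz : ∀ x ∈ M, x ∈ orth β M → x = 0 := fun x h1 h2 => by
      have : x ∈ M ⊓ orth β M := ⟨h1, h2⟩
      rwa [h0, Submodule.mem_bot] at this
    have hA : ∀ x ∈ M, (∀ y ∈ M, β x y = 0) → x = 0 := fun x hx h =>
      hz x hx fun y hy => by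
        have := ha y hy x
        rwa [h y hy, add_zero] at this
    have hdec : ∀ v, ∃ m ∈ M, v - m ∈ orth β M := fun v => by
      obtain ⟨m, hm⟩ := surj (β.compl₁₂ M.subtype M.subtype)
        (fun x hx => Subtype.ext (hA x x.2 fun y hy => hx ⟨y, hy⟩)) ((β.flip v) ∘ₗ M.subtype)
      refine ⟨m, m.2, fun x hx => ?_⟩
      have : β x m = β x v := hm ⟨x, hx⟩
      rw [map_sub, this, sub_self]
    refine ⟨M, orth β M, hM, hO, ⟨disjoint_iff.2 h0, codisjoint_iff.2 ?_⟩, fun h => hb ?_,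
      fun x hx h => hn x fun v => ?_, Or.inl ⟨ht, hA⟩⟩
    · rw [eq_top_iff]
      intro v _
      obtain ⟨m, hm, hv⟩ := hdec v
      exact Submodule.mem_sup.2 ⟨m, hm, v - m, hv, by abel⟩
    · rwa [h, inf_top_eq] at h0
    · obtain ⟨m, hm, hv⟩ := hdec v
      have e1 := h _ hv
      have e2 := ha m hm x
      rw [hx m hm, zero_add] at e2
      rwa [map_sub, e2, sub_zero] at e1
  · set M0 := M ⊓ orth β M with hM0
    have s0 : St ρ M0 := fun h x hx => ⟨hM h x hx.1, hO h x hx.2⟩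
    have sN := st_orth hβ s0
    set N := orth β M0 with hN
    have le0 : ∀ x ∈ M0, x ∈ N := fun x hx y hy => hx.2 y hy.1
    obtain ⟨Q, Q1, Q2, Q3⟩ := mas hp ρ N sN
    obtain ⟨P, P1, P2, P3⟩ := mas hp ρ M0 s0
    have QQ : ∀ x, Q (x - Q x) = 0 := fun x => by rw [map_sub, Q2 _ (Q1 x), sub_self]
    have PP : ∀ x, P (x - P x) = 0 := fun x => by rw [map_sub, P2 _ (P1 x), sub_self]
    refine ⟨M0.comap Q, N ⊓ LinearMap.ker P, fun h x hx => ?_, fun h x hx => ⟨sN h x hx.1, ?_⟩,
      ⟨disjoint_iff.2 ?_, codisjoint_iff.2 ?_⟩, fun h => h0 ?_, fun x hx h => ?_,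
      Or.inr ⟨β.compl₁₂ Q (LinearMap.id - Q), fun h x y => ?_, fun x hx h => ?_⟩⟩
    · show Q (ρ h x) ∈ M0
      rw [Q3]; exact s0 h _ hx
    · show P (ρ h x) = 0
      rw [P3, show P x = 0 from hx.2, map_zero]
    · rw [eq_bot_iff]
      rintro x ⟨h1, h2, h3⟩
      have h4 : Q x ∈ M0 := h1
      rw [Q2 x h2] at h4
      have h5 : P x = 0 := h3
      rw [P2 x h4] at h5
      exact h5
    · rw [eq_top_iff]
      intro v _
      refine Submodule.mem_sup.2 ⟨v - Q v + P (Q v), ?_, Q v - P (Q v), ⟨?_, PP _⟩, by abel⟩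
      · show Q _ ∈ M0
        rw [map_add, QQ, zero_add, Q2 _ (le0 _ (P1 _))]; exact P1 _
      · exact N.sub_mem (Q1 v) (le0 _ (P1 _))
    · rw [eq_bot_iff]
      intro x hx
      have h1 : x ∈ N ⊓ LinearMap.ker P := h ▸ Submodule.mem_top
      have h5 : P x = 0 := h1.2
      rw [P2 x hx] at h5
      exact h5
    · have hall : ∀ y ∈ N, β x y = 0 := fun y hy => by
        have e1 := h (y - P y) ⟨N.sub_mem hy (le0 _ (P1 _)), PP y⟩
        have e2 := ha (P y) (P1 y).1 x
        rw [hx.1 _ (P1 y), zero_add] at e2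
        rwa [map_sub, e2, sub_zero] at e1
      have hxP : P x = 0 := hx.2
      refine hn x fun v => ?_
      -- the functional `z ↦ β (z - P z) v` kills `M0`
      obtain ⟨y, hy⟩ := surj β hn ((β.flip v) ∘ₗ (LinearMap.id - P))
      have hyN : y ∈ N := fun z hz => by
        rw [hy z]
        show β (z - P z) v = 0
        rw [P2 z hz, sub_self, map_zero]; rfl
      have := hy x
      rw [hall y hyN] at this
      have e : β (x - P x) v = 0 := this.symm
      rwa [hxP, sub_zero] at e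
    · show β (Q (ρ h x)) (ρ h y - Q (ρ h y)) = β (Q x) (y - Q y)
      rw [Q3, Q3, ← map_sub, hβ]
    · have hx' : Q x ∈ M0 := hx
      have h' : ∀ y, Q y ∈ M0 → β (Q x) (y - Q y) + β (Q y) (x - Q x) = 0 := fun y hy => h y hy
      have a1 : Q x = 0 := hn _ fun v => by
        have e := h' (v - Q v) (by rw [QQ]; exact M0.zero_mem)
        rw [QQ, sub_zero, map_zero, LinearMap.zero_apply, add_zero, map_sub,
          Q1 v _ hx', sub_zero] at e
        exact e
      have a2 : x ∈ N := fun y hy => by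
        have e := h' y (by rw [Q2 y (le0 y hy)]; exact hy)
        rwa [a1, map_zero, LinearMap.zero_apply, zero_add, sub_zero, Q2 y (le0 y hy)] at e
      rw [← Q2 x a2, a1]

end H24.Dec
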