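import Mathlib.Data.Nat.Factorization.Basic
import Mathlib.Algebra.BigOperators.Fin
import Mathlib.Tactic

set_option autoImplicit false
set_option maxHeartbeats 400000

namespace H24.Ord

theorem fac_eq {p a n d N R : ℕ} (hp : p.Prime) (h : d * n = (p ^ a) ^ N * R) (hR : ¬ p ∣ R) (hd : ¬ p ∣ d) :
    n.factorization p = a * N := by
  have hR0 : R ≠ 0 := by rintro rfl; exact hR (dvd_zero _)
  have hd0 : d ≠ 0 := by rintro rfl; exact hd (dvd_zero _)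
  have hp0 : (p ^ a) ^ N ≠ 0 := pow_ne_zero _ (pow_ne_zero _ hp.ne_zero)
  have hn0 : n ≠ 0 := by
    rintro rfl
    exact mul_ne_zero hp0 hR0 (by rw [← h, mul_zero])
  have : (d * n).factorization p = ((p ^ a) ^ N * R).factorization p := by rw [h]
  rw [Nat.factorization_mul hd0 hn0, Nat.factorization_mul hp0 hR0, Finsupp.add_apply, Finsupp.add_apply,
    Nat.factorization_eq_zero_of_not_dvd hR, Nat.factorization_eq_zero_of_not_dvd hd, ← pow_mul,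
    hp.factorization_pow, Finsupp.single_eq_same] at this
  omega

theorem key0 {p a n d N R D : ℕ} (hp : p.Prime) (ha : a ≠ 0) (h : d * n = (p ^ a) ^ N * R) (hR : ¬ p ∣ R)
    (hd : ¬ p ∣ d) (hb : R ≤ d * (p ^ a) ^ D) (hD : D ≠ 0) : n < p ^ (a * (N + D)) := by
  have hf := fac_eq hp h hR hd
  have hd0 : 0 < d := Nat.pos_of_ne_zero (by rintro rfl; exact hd (dvd_zero _))
  have h1 : n ≤ p ^ (a * (N + D)) := by
    refine Nat.le_of_mul_le_mul_left ?_ hd0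
    rw [h, pow_mul, pow_add]
    calc (p ^ a) ^ N * R ≤ (p ^ a) ^ N * (d * (p ^ a) ^ D) := Nat.mul_le_mul_left _ hb
      _ = _ := by ring
  refine lt_of_le_of_ne h1 fun he => ?_
  rw [he, hp.factorization_pow, Finsupp.single_eq_same, mul_add] at hf
  have := Nat.mul_pos (Nat.pos_of_ne_zero ha) (Nat.pos_of_ne_zero hD)
  omega

theorem key {p a n d N R D : ℕ} (hp : p.Prime) (ha : a ≠ 0) (h : d * n = (p ^ a) ^ N * R) (hR : ¬ p ∣ R)
    (hd : ¬ p ∣ d) (hb : R ≤ d * (p ^ a) ^ D) (hD : D ≠ 0) (hN : 3 * D ≤ 5 * N) :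
    n < p ^ (3 * n.factorization p) ∧ n ^ 3 < p ^ (8 * n.factorization p) := by
  have h1 := key0 hp ha h hR hd hb hD
  rw [fac_eq hp h hR hd]
  refine ⟨h1.trans_le (Nat.pow_le_pow_right hp.pos ?_), ?_⟩
  · have : N + D ≤ 3 * N := by omega
    nlinarith [Nat.mul_le_mul_left a this]
  · refine (Nat.pow_lt_pow_left h1 (by norm_num)).trans_le ?_
    rw [← pow_mul]
    refine Nat.pow_le_pow_right hp.pos ?_
    have : (N + D) * 3 ≤ 8 * N := by omega
    nlinarith [Nat.mul_le_mul_left a this]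

theorem nd_sub {p a : ℕ} (hp : p.Prime) (ha : a ≠ 0) {k : ℕ} (hk : k ≠ 0) : ¬ p ∣ (p ^ a) ^ k - 1 := by
  intro h
  have h1 : p ∣ (p ^ a) ^ k := dvd_pow (dvd_pow_self p ha) hk
  have h2 : 1 ≤ (p ^ a) ^ k := Nat.one_le_pow _ _ (Nat.pow_pos hp.pos)
  have := Nat.dvd_sub h1 h
  rw [Nat.sub_sub_self h2] at this
  exact hp.one_lt.ne' (Nat.dvd_one.1 this)

theorem nd_add {p a : ℕ} (hp : p.Prime) (ha : a ≠ 0) {k : ℕ} (hk : k ≠ 0) : ¬ p ∣ (p ^ a) ^ k + 1 := by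
  intro h
  have h1 : p ∣ (p ^ a) ^ k := dvd_pow (dvd_pow_self p ha) hk
  exact hp.one_lt.ne' (Nat.dvd_one.1 ((Nat.dvd_add_right h1).1 h))

theorem nd_sub1 {p a : ℕ} (hp : p.Prime) (ha : a ≠ 0) : ¬ p ∣ p ^ a - 1 := by
  simpa using nd_sub hp ha one_ne_zero

theorem nd_add1 {p a : ℕ} (hp : p.Prime) (ha : a ≠ 0) : ¬ p ∣ p ^ a + 1 := by
  simpa using nd_add hp ha one_ne_zero

theorem nd_mul {p x y : ℕ} (hp : p.Prime) (hx : ¬ p ∣ x) (hy : ¬ p ∣ y) : ¬ p ∣ x * y :=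
  fun h => (hp.dvd_mul.1 h).elim hx hy

theorem nd_gcd {p x y : ℕ} (hy : ¬ p ∣ y) : ¬ p ∣ Nat.gcd x y :=
  fun h => hy (h.trans (Nat.gcd_dvd_right _ _))

theorem nd_prod {p : ℕ} (hp : p.Prime) (f : ℕ → ℕ) (n : ℕ) (h : ∀ i, ¬ p ∣ f i) :
    ¬ p ∣ ∏ i ∈ Finset.range n, f i := by
  induction n with
  | zero => simpa using hp.one_lt.ne'
  | succ n ih => rw [Finset.prod_range_succ]; exact nd_mul hp ih (h n)

theorem prod_even_le (q m : ℕ) : ∏ i ∈ Finset.range m, (q ^ (2 * (i + 1)) - 1) ≤ q ^ (m * (m + 1)) := by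
  induction m with
  | zero => simp
  | succ m ih =>
    rw [Finset.prod_range_succ, show (m + 1) * (m + 1 + 1) = m * (m + 1) + 2 * (m + 1) by ring, pow_add]
    exact Nat.mul_le_mul ih (Nat.sub_le _ _)

theorem prod_gl (q n : ℕ) : ∃ N, 2 * N + n = n * n ∧
    ∏ i : Fin n, (q ^ n - q ^ (i : ℕ)) = q ^ N * ∏ i ∈ Finset.range n, (q ^ (i + 1) - 1) := by
  induction n with
  | zero => exact ⟨0, by simp⟩
  | succ n ih =>
    obtain ⟨N, h1, h2⟩ := ih
    refine ⟨N + n, by nlinarith, ?_⟩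
    rw [Fin.prod_univ_succ, Finset.prod_range_succ]
    have : ∀ i : Fin n, q ^ (n + 1) - q ^ ((i.succ : Fin (n + 1)) : ℕ) = q * (q ^ n - q ^ (i : ℕ)) := by
      intro i
      rw [Fin.val_succ, pow_succ', pow_succ', Nat.mul_sub]
    rw [Finset.prod_congr rfl (fun i _ => this i), Finset.prod_mul_distrib, h2, Finset.prod_const,
      Finset.card_univ, Fintype.card_fin, Fin.val_zero, pow_zero, pow_add q N]
    ring

theorem prod_sl_le (q n : ℕ) : ∃ D, 2 * D = n * (n + 3) ∧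
    ∏ i ∈ Finset.range (n + 1), (q ^ (i + 1) - 1) ≤ (q - 1) * q ^ D := by
  induction n with
  | zero => exact ⟨0, by simp⟩
  | succ n ih =>
    obtain ⟨D, h1, h2⟩ := ih
    refine ⟨D + (n + 1 + 1), by nlinarith, ?_⟩
    rw [Finset.prod_range_succ, pow_add q D, ← mul_assoc]
    exact Nat.mul_le_mul h2 (Nat.sub_le _ _)

theorem pair_le {q : ℕ} (hq : 1 ≤ q) {a b : ℕ} (hab : a ≤ b) : (q ^ a - 1) * (q ^ b + 1) ≤ q ^ (a + b) := by
  have h1 : 1 ≤ q ^ a := Nat.one_le_pow _ _ hq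
  have h2 : q ^ a ≤ q ^ b := Nat.pow_le_pow_right hq hab
  obtain ⟨x, hx⟩ := Nat.exists_eq_add_of_le h1
  rw [pow_add, hx, Nat.add_sub_cancel_left]
  nlinarith

theorem prod_su_odd {q : ℕ} (hq : 1 ≤ q) (k : ℕ) :
    ∏ i ∈ Finset.range (2 * k + 1), (if Even i then q ^ (i + 1) + 1 else q ^ (i + 1) - 1) ≤
      (q + 1) * q ^ (2 * k * k + 3 * k) := by
  induction k with
  | zero => simp
  | succ k ih =>
    rw [show 2 * (k + 1) + 1 = 2 * k + 1 + 1 + 1 by ring, Finset.prod_range_succ, Finset.prod_range_succ,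
      if_neg (by simp [parity_simps]), if_pos (by simp [parity_simps]), mul_assoc,
      show 2 * (k + 1) * (k + 1) + 3 * (k + 1) = 2 * k * k + 3 * k + ((2 * k + 1 + 1) + (2 * k + 1 + 1 + 1)) by ring,
      pow_add q (2 * k * k + 3 * k), ← mul_assoc (q + 1)]
    exact Nat.mul_le_mul ih (pair_le hq (by omega))

theorem prod_su_le {q : ℕ} (hq : 1 ≤ q) (n : ℕ) : ∃ D, 2 * D = n * (n + 3) ∧
    ∏ i ∈ Finset.range (n + 1), (if Even i then q ^ (i + 1) + 1 else q ^ (i + 1) - 1) ≤ (q + 1) * q ^ D := by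
  obtain ⟨k, rfl | rfl⟩ := Nat.even_or_odd' n
  · exact ⟨_, by ring, prod_su_odd hq k⟩
  · refine ⟨2 * k * k + 3 * k + (2 * k + 1 + 1), by ring, ?_⟩
    rw [Finset.prod_range_succ, if_neg (by simp [parity_simps]), pow_add q (2 * k * k + 3 * k), ← mul_assoc]
    exact Nat.mul_le_mul (prod_su_odd hq k) (Nat.sub_le _ _)

theorem add_le {q : ℕ} (hq : 2 ≤ q) (a : ℕ) : q ^ a + 1 ≤ q ^ (a + 1) := by
  have h1 : 1 ≤ q ^ a := Nat.one_le_pow _ _ (by omega)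
  rw [pow_succ]; nlinarith

theorem le_gcd_mul {x y z : ℕ} (hx : x ≠ 0) : z ≤ Nat.gcd x y * z :=
  Nat.le_mul_of_pos_left _ (Nat.gcd_pos_of_pos_left _ (Nat.pos_of_ne_zero hx))

end H24.Ord
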