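import Mathlib

/-! Sylow normalizers for the large primes in a group of the order of `J4`. -/

set_option autoImplicit false
set_option maxHeartbeats 400000

namespace H24.Sy4

open Subgroup

variable {G : Type*} [Group G] [Finite G]

theorem nc {q : ℕ} (hq : q.Prime) (W : Subgroup G) (hW : Nat.card W = q) :
    ((centralizer (W : Set G)).subgroupOf (normalizer (W : Set G))).index ∣ q - 1 ∧
    Nat.card (centralizer (W : Set G)) *
      ((centralizer (W : Set G)).subgroupOf (normalizer (W : Set G))).index =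
        Nat.card (normalizer (W : Set G)) := by
  haveI := Fact.mk hq
  haveI : IsCyclic W := isCyclic_of_prime_card hW
  constructor
  · rw [← normalizerMonoidHom_ker, index_ker, ← Nat.totient_prime hq, ← hW, ← IsCyclic.card_mulAut]
    exact card_subgroup_dvd_card _
  · rw [← Nat.card_congr (subgroupOfEquivOfLe (centralizer_le_normalizer (W : Set G))).toEquiv]
    exact card_mul_index _

def E (G : Type*) [Group G] (r q : ℕ) : Prop :=
  ∃ x y : G, orderOf x = r ∧ orderOf y = q ∧ Commute x y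

theorem toE {r q : ℕ} (hr : r.Prime) (hq : q.Prime) (W : Subgroup G) (hW : q ∣ Nat.card W)
    (h : r ∣ Nat.card (centralizer (W : Set G))) : E G r q := by
  haveI := Fact.mk hq
  haveI := Fact.mk hr
  obtain ⟨x, hx⟩ := exists_prime_orderOf_dvd_card' r h
  obtain ⟨y, hy⟩ := exists_prime_orderOf_dvd_card' q hW
  exact ⟨x, y, by simpa using hx, by simpa using hy, (mem_centralizer_iff.1 x.2 y y.2).symm⟩

theorem E.up {H : Subgroup G} {r q : ℕ} (h : E H r q) : E G r q := by
  obtain ⟨x, y, hx, hy, c⟩ := h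
  exact ⟨x, y, by simpa using hx, by simpa using hy, c.map H.subtype⟩

theorem cardS {q : ℕ} [hq : Fact q.Prime] (U : Sylow q G) (h1 : q ∣ Nat.card G)
    (h2 : ¬ q ^ 2 ∣ Nat.card G) : Nat.card (U : Subgroup G) = q := by
  rw [U.card_eq_multiplicity]
  have a := (hq.out.pow_dvd_iff_le_factorization (k := 1) (Nat.card_pos (α := G)).ne').1
    (by simpa using h1)
  have b := mt (hq.out.pow_dvd_iff_le_factorization (k := 2) (Nat.card_pos (α := G)).ne').2 h2
  rw [show (Nat.card G).factorization q = 1 by omega, pow_one]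

theorem rule {r q : ℕ} (hr : r.Prime) (hq : q.Prime) (h2 : ¬ q ^ 2 ∣ Nat.card G) (U : Subgroup G)
    (hn : r ∣ Nat.card (normalizer (U : Set G))) (hc : ¬ r ∣ Nat.card (centralizer (U : Set G)))
    (hd : q ∣ Nat.card (centralizer (U : Set G))) (hrq : ¬ r ∣ q - 1) : E G r q := by
  haveI := Fact.mk hq
  set N := normalizer (U : Set G)
  set C := (centralizer (U : Set G)).subgroupOf N
  have cC : Nat.card C = Nat.card (centralizer (U : Set G)) :=
    Nat.card_congr (subgroupOfEquivOfLe (centralizer_le_normalizer (U : Set G))).toEquiv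
  haveI : C.Normal := normal_subgroupOf_centralizer_normalizer _
  obtain ⟨W⟩ : Nonempty (Sylow q C) := inferInstance
  have cW : Nat.card (W : Subgroup C) = q := cardS W (cC ▸ hd)
    fun e => h2 (e.trans (cC ▸ card_subgroup_dvd_card _))
  have fr := Sylow.normalizer_sup_eq_top W
  have cW1 : Nat.card ((W : Subgroup C).map C.subtype) = q := by rw [card_subtype, cW]
  have i1 : r ∣ C.index := by
    have := card_mul_index C
    rw [← this, cC] at hn
    exact (hr.dvd_mul.1 hn).resolve_left hc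
  rw [← relIndex_top_right, ← fr, relIndex_sup_right] at i1
  have i2 := i1.trans (relIndex_dvd_card _ _)
  obtain ⟨a, b⟩ := nc hq _ cW1
  rw [← b] at i2
  exact (toE hr hq _ (by rw [cW1])
    ((hr.dvd_mul.1 i2).resolve_right fun e => hrq (e.trans a))).up

theorem ncard {p : ℕ} [Fact p.Prime] (U P : Sylow p G) :
    Nat.card (normalizer ((U : Subgroup G) : Set G)) =
      Nat.card (normalizer ((P : Subgroup G) : Set G)) := by
  have a := card_mul_index (normalizer ((U : Subgroup G) : Set G))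
  have b := card_mul_index (normalizer ((P : Subgroup G) : Set G))
  have c : (normalizer ((U : Subgroup G) : Set G)).index = Nat.card (Sylow p G) :=
    U.card_eq_index_normalizer.symm
  have d : (normalizer ((P : Subgroup G) : Set G)).index = Nat.card (Sylow p G) :=
    P.card_eq_index_normalizer.symm
  rw [c] at a
  rw [d, ← a] at b
  exact (Nat.eq_of_mul_eq_mul_right Nat.card_pos b).symm

theorem ccard {p : ℕ} [Fact p.Prime] (U P : Sylow p G) :
    Nat.card (centralizer ((U : Subgroup G) : Set G)) ≤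
      Nat.card (centralizer ((P : Subgroup G) : Set G)) := by
  obtain ⟨g, rfl⟩ := MulAction.exists_smul_eq G P U
  refine Nat.card_le_card_of_injective (fun x => ⟨g⁻¹ * x * g, mem_centralizer_iff.2 fun y hy => ?_⟩)
    fun x y e => Subtype.ext (by simpa using congrArg Subtype.val e)
  have m : g * y * g⁻¹ ∈ ((g • P : Sylow p G) : Subgroup G) := ⟨y, hy, rfl⟩
  have := mem_centralizer_iff.1 x.2 _ m
  calc _ = g⁻¹ * (g * y * g⁻¹ * x) * g := by group
    _ = _ := by rw [this]; group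

theorem sylOf {p : ℕ} [hp : Fact p.Prime] (h2 : ¬ p ^ 2 ∣ Nat.card G) (W : Subgroup G)
    (hW : Nat.card W = p) : ∃ P : Sylow p G, (P : Subgroup G) = W := by
  obtain ⟨P, hP⟩ := (IsPGroup.of_card (p := p) (n := 1) (by rw [hW, pow_one])).exists_le_sylow
  exact ⟨P, (eq_of_le_of_card_ge hP (by
    rw [hW, cardS P (hW ▸ card_subgroup_dvd_card W) h2])).symm⟩

theorem noE {p q : ℕ} [hp : Fact p.Prime] (h2 : ¬ p ^ 2 ∣ Nat.card G) (hq : ¬ q ∣ p)
    (h : ∀ U : Sylow p G, Nat.card (centralizer ((U : Subgroup G) : Set G)) = p) : ¬ E G p q := by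
  rintro ⟨x, y, hx, hy, c⟩
  obtain ⟨P, hP⟩ := sylOf h2 (zpowers x) (by rw [Nat.card_zpowers, hx])
  have m : y ∈ centralizer ((P : Subgroup G) : Set G) := by
    rw [hP]
    rintro _ ⟨k, rfl⟩
    exact (c.zpow_left k).eq
  exact hq (by rw [← h P, ← hy]; exact orderOf_dvd_natCard _ m)

def DL : List ℕ := [1, 43, 37, 1591, 31, 1333, 1147, 49321, 29, 1247, 1073, 46139, 899, 38657, 33263, 1430309, 23, 989, 851, 36593, 713, 30659, 26381, 1134383, 667, 28681, 24679, 1061197, 20677, 889111, 765049, 32897107, 11, 473, 407, 17501, 341, 14663, 12617, 542531, 319, 13717, 11803, 507529, 9889, 425227, 365893, 15733399, 253, 10879, 9361, 402523, 7843, 337249, 290191, 12478213, 7337, 315491, 271469, 11673167, 227447, 9780221, 8415539, 361868177, 121, 5203, 4477, 192511, 3751, 161293, 138787, 5967841, 3509, 150887, 129833, 5582819, 108779, 4677497, 4024823, 173067389, 2783, 119669, 102971, 4427753, 86273, 3709739, 3192101, 137260343, 80707, 3470401, 2986159, 128404837,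 2501917, 107582431, 92570929, 3980549947, 1331, 57233, 49247, 2117621, 41261, 1774223, 1526657, 65646251, 38599, 1659757, 1428163, 61411009, 1196569, 51452467, 44273053, 1903741279, 30613, 1316359, 1132681, 48705283, 949003, 40807129, 35113111, 1509863773, 887777, 38174411, 32847749, 1412453207, 27521087, 1183406741, 1018280219, 43786049417]

theorem dl0 : ∀ a ∈ [1, 11, 121, 1331], ∀ b ∈ [1, 23], ∀ c ∈ [1, 29], ∀ d ∈ [1, 31],
    ∀ f ∈ [1, 37], ∀ g ∈ [1, 43], a * (b * (c * (d * (f * g)))) ∈ DL := by decide +kernel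

theorem dl {c : ℕ} (h : c ∣ 11 ^ 3 * (23 * (29 * (31 * (37 * 43))))) : c ∈ DL := by
  obtain ⟨a, x1, ha, h1, rfl⟩ := (Nat.dvd_mul (k := c) (m := 11 ^ 3)).1 h
  obtain ⟨b, x2, hb, h2, rfl⟩ := (Nat.dvd_mul (k := x1) (m := 23)).1 h1
  obtain ⟨c, x3, hc, h3, rfl⟩ := (Nat.dvd_mul (k := x2) (m := 29)).1 h2
  obtain ⟨d, x4, hd, h4, rfl⟩ := (Nat.dvd_mul (k := x3) (m := 31)).1 h3
  obtain ⟨f, g, hf, hg, rfl⟩ := (Nat.dvd_mul (k := x4) (m := 37) (n := 43)).1 h4
  have k : ∀ {x p : ℕ}, p.Prime → x ∣ p → x ∈ [1, p] := fun hp hx => by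
    simpa using (Nat.dvd_prime hp).1 hx
  refine dl0 a ?_ b (k (by norm_num) hb) c (k (by norm_num) hc) d (k (by norm_num) hd) f
    (k (by norm_num) hf) g (k (by norm_num) hg)
  obtain ⟨i, hi, rfl⟩ := (Nat.dvd_prime_pow (by norm_num)).1 ha
  interval_cases i <;> simp

abbrev J : ℕ := 86775571046077562880

def Q (p c e : ℕ) : Prop := p ∣ c ∧ e ∣ p - 1 ∧ c * e ∣ J ∧ J / (c * e) % p = 1

instance (p c e : ℕ) : Decidable (Q p c e) := by unfold Q; infer_instance

theorem data (hc : Nat.card G = J) {p : ℕ} [hp : Fact p.Prime] (h1 : p ∣ J) (h2 : ¬ p ^ 2 ∣ J)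
    (hx : ∀ r ∈ [2, 3, 5, 7], ¬ E G r p) (U : Sylow p G) :
    ∃ c ∈ DL, ∃ e ∈ List.range p, Q p c e ∧ (∀ r ∈ [2, 3, 5, 7], ¬ r ∣ c) ∧
      Nat.card (U : Subgroup G) = p ∧
      Nat.card (centralizer ((U : Subgroup G) : Set G)) = c ∧
      Nat.card (normalizer ((U : Subgroup G) : Set G)) = c * e ∧
      ((centralizer ((U : Subgroup G) : Set G)).subgroupOf
        (normalizer ((U : Subgroup G) : Set G))).index = e := by
  have cU := cardS U (hc ▸ h1) (hc ▸ h2)
  obtain ⟨a, b⟩ := nc hp.out _ cU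
  have nd : ∀ r ∈ [2, 3, 5, 7], ¬ r ∣ Nat.card (centralizer ((U : Subgroup G) : Set G)) :=
    fun r hr h => hx r hr (toE (by
      simp only [List.mem_cons, List.not_mem_nil, or_false] at hr
      rcases hr with rfl | rfl | rfl | rfl <;> norm_num) hp.out _ (by rw [cU]) h)
  have p2 := hp.out.two_le
  refine ⟨_, dl ?_, _, List.mem_range.2 ?_, ⟨?_, a, ?_, ?_⟩, nd, cU, rfl, b.symm, rfl⟩
  · have d := card_subgroup_dvd_card (centralizer ((U : Subgroup G) : Set G))
    rw [hc, show J = (2 ^ 21 * (3 ^ 3 * (5 * 7))) * (11 ^ 3 * (23 * (29 * (31 * (37 * 43)))))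
      by norm_num] at d
    refine Nat.Coprime.dvd_of_dvd_mul_left ?_ d
    have k : ∀ r ∈ [2, 3, 5, 7], r.Prime →
        (Nat.card (centralizer ((U : Subgroup G) : Set G))).Coprime r :=
      fun r hr hp => ((Nat.Prime.coprime_iff_not_dvd hp).2 (nd r hr)).symm
    exact ((k 2 (by simp) (by norm_num)).pow_right _).mul_right
      (((k 3 (by simp) (by norm_num)).pow_right _).mul_right
        ((k 5 (by simp) (by norm_num)).mul_right (k 7 (by simp) (by norm_num))))
  · have := Nat.le_of_dvd (by omega) a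
    omega
  · haveI : IsCyclic (U : Subgroup G) := isCyclic_of_prime_card cU
    nth_rewrite 1 [← cU]
    exact card_dvd_of_le (le_centralizer _)
  · rw [b, ← hc]; exact card_subgroup_dvd_card _
  · have i := card_mul_index (normalizer ((U : Subgroup G) : Set G))
    have c : (normalizer ((U : Subgroup G) : Set G)).index = Nat.card (Sylow p G) :=
      U.card_eq_index_normalizer.symm
    rw [b, ← hc, ← i, Nat.mul_div_cancel_left _ Nat.card_pos, c]
    exact Eq.trans (card_sylow_modEq_one p G) (Nat.mod_eq_of_lt (by omega))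

theorem n31 : ∀ c ∈ DL, ∀ e ∈ List.range 31, Q 31 c e → 2 ∣ c * e → 5 ∣ c * e → ¬ 23 ∣ c →
    ¬ 37 ∣ c → c = 31 ∧ e = 10 := by decide +kernel
theorem n43 : ∀ c ∈ DL, ∀ e ∈ List.range 43, Q 43 c e → ¬ 31 ∣ c → (3 ∣ c * e → ¬ 23 ∣ c) →
    (3 ∣ c * e → ¬ 29 ∣ c) → c = 43 ∧ e = 14 := by decide +kernel
theorem n23 : ∀ c ∈ DL, ∀ e ∈ List.range 23, Q 23 c e → ¬ 31 ∣ c → ¬ 43 ∣ c →
    (c = 23 ∧ e = 22) ∨ (c = 253 ∧ e = 2) := by decide +kernel
theorem n37 : ∀ c ∈ DL, ∀ e ∈ List.range 37, Q 37 c e → ¬ 31 ∣ c → ¬ 43 ∣ c → ¬ 23 ∣ c →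
    c = 37 ∧ e = 12 := by decide +kernel
theorem n29 : ∀ c ∈ DL, ∀ e ∈ List.range 29, Q 29 c e → ¬ 31 ∣ c → ¬ 43 ∣ c → ¬ 23 ∣ c →
    ¬ 37 ∣ c → c = 29 ∧ e = 28 := by decide +kernel

end H24.Sy4
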