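import Cfsg.Agent.H24.Sy4a

/-! Sylow normalizers for the large primes in a group of the order of `J4`: the main step. -/

set_option autoImplicit false
set_option maxHeartbeats 400000

namespace H24.Sy4

open Subgroup

variable {G : Type*} [Group G] [Finite G]

theorem five (hx : ∀ r ∈ [2, 3, 5, 7], ¬ E G r 31) (K : Subgroup G) (hK : Nat.card K = 9999360) :
    ∃ W : Subgroup G, Nat.card W = 31 ∧ 5 ∣ Nat.card (normalizer (W : Set G)) := by
  haveI : Fact (Nat.Prime 31) := ⟨by norm_num⟩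
  obtain ⟨U⟩ : Nonempty (Sylow 31 K) := inferInstance
  have cU := cardS U (by rw [hK]; norm_num) (by rw [hK]; norm_num)
  obtain ⟨a, b⟩ := nc (by norm_num) _ cU
  have nd : ∀ r ∈ [2, 3, 5, 7], r.Prime →
      (Nat.card (centralizer ((U : Subgroup K) : Set K))).Coprime r := fun r hr hp =>
    ((Nat.Prime.coprime_iff_not_dvd hp).2 fun h =>
      hx r hr (toE hp (by norm_num) _ (by rw [cU]) h).up).symm
  have d := card_subgroup_dvd_card (centralizer ((U : Subgroup K) : Set K))
  rw [hK, show 9999360 = (2 ^ 10 * (3 ^ 2 * (5 * 7))) * 31 by norm_num] at d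
  have d2 := Nat.Coprime.dvd_of_dvd_mul_left (((nd 2 (by simp) (by norm_num)).pow_right _).mul_right
      (((nd 3 (by simp) (by norm_num)).pow_right _).mul_right
        ((nd 5 (by simp) (by norm_num)).mul_right (nd 7 (by simp) (by norm_num))))) d
  have i := card_mul_index (normalizer ((U : Subgroup K) : Set K))
  have c : (normalizer ((U : Subgroup K) : Set K)).index = Nat.card (Sylow 31 K) :=
    U.card_eq_index_normalizer.symm
  have m : Nat.card (Sylow 31 K) % 31 = 1 := card_sylow_modEq_one 31 K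
  have key : ∀ c ∈ [1, 31], ∀ e ∈ List.range 31, e ∣ 30 → 9999360 / (c * e) % 31 = 1 →
      c * e ∣ 9999360 → 5 ∣ c * e := by decide +kernel
  have h5 : 5 ∣ Nat.card (normalizer ((U : Subgroup K) : Set K)) := by
    rw [← b]
    refine key _ (by simpa using (Nat.dvd_prime (by norm_num)).1 d2) _
      (List.mem_range.2 (by have := Nat.le_of_dvd (by norm_num) a; omega)) a ?_ ?_
    · rw [b, ← hK, ← i, Nat.mul_div_cancel_left _ Nat.card_pos, c, m]
    · rw [b, ← hK]; exact card_subgroup_dvd_card _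
  refine ⟨(U : Subgroup K).map K.subtype, by rw [card_subtype, cU], h5.trans ?_⟩
  rw [← card_subtype]
  exact card_dvd_of_le (le_normalizer_map _)

theorem mem_nz {a b : G} (h : b * a * b⁻¹ ∈ zpowers a) : b ∈ normalizer (zpowers a : Set G) := by
  refine mem_normalizer_fintype ?_
  rintro _ ⟨k, rfl⟩
  simp only [← conj_zpow]
  exact zpow_mem h k

theorem fin1 {p : ℕ} [hp : Fact p.Prime] (U : Sylow p G) (h1 : Nat.card (U : Subgroup G) = p)
    (h2 : Nat.card (centralizer ((U : Subgroup G) : Set G)) = p) :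
    centralizer ((U : Subgroup G) : Set G) = (U : Subgroup G) := by
  haveI : IsCyclic (U : Subgroup G) := isCyclic_of_prime_card h1
  exact (eq_of_le_of_card_ge (le_centralizer _) (by rw [h1, h2])).symm

theorem E.symm {r q : ℕ} (h : E G r q) : E G q r := by
  obtain ⟨x, y, a, b, c⟩ := h
  exact ⟨y, x, b, a, c.symm⟩

theorem syl [Fact (Nat.Prime 23)] [Fact (Nat.Prime 29)] [Fact (Nat.Prime 31)] [Fact (Nat.Prime 37)]
    [Fact (Nat.Prime 43)] (hc : Nat.card G = 86775571046077562880)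
    (hx : ∀ x y : G, orderOf x ∈ [2, 3, 5, 7] → orderOf y ∈ [23, 29, 31, 37, 43] → ¬ Commute x y)
    (h5 : ∃ K : Subgroup G, Nat.card K = 9999360)
    (h2 : ∃ a t : G, orderOf a = 31 ∧ t * a * t⁻¹ = a⁻¹)
    (h11 : ∃ a b : G, orderOf a = 23 ∧ b * a * b⁻¹ = a ^ 2) :
    (∀ U : Sylow 23 G, Subgroup.centralizer ((U : Subgroup G) : Set G) = (U : Subgroup G) ∧ Nat.card ↥(Subgroup.normalizer ((U : Subgroup G) : Set G)) = 23 * 22) ∧
    (∀ U : Sylow 29 G, Subgroup.centralizer ((U : Subgroup G) : Set G) = (U : Subgroup G) ∧ Nat.card ↥(Subgroup.normalizer ((U : Subgroup G) : Set G)) = 29 * 28) ∧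
    (∀ U : Sylow 31 G, Subgroup.centralizer ((U : Subgroup G) : Set G) = (U : Subgroup G) ∧ Nat.card ↥(Subgroup.normalizer ((U : Subgroup G) : Set G)) = 31 * 10) ∧
    (∀ U : Sylow 37 G, Subgroup.centralizer ((U : Subgroup G) : Set G) = (U : Subgroup G) ∧ Nat.card ↥(Subgroup.normalizer ((U : Subgroup G) : Set G)) = 37 * 12) ∧
    (∀ U : Sylow 43 G, Subgroup.centralizer ((U : Subgroup G) : Set G) = (U : Subgroup G) ∧ Nat.card ↥(Subgroup.normalizer ((U : Subgroup G) : Set G)) = 43 * 14) := by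
  have hE : ∀ q ∈ [23, 29, 31, 37, 43], ∀ r ∈ [2, 3, 5, 7], ¬ E G r q := by
    rintro q hq r hr ⟨x, y, rfl, rfl, c⟩
    exact hx x y hr hq c
  have sq : ∀ q ∈ [23, 29, 31, 37, 43], ¬ q ^ 2 ∣ Nat.card G := by rw [hc]; decide +kernel
  have ru : ∀ (U : Subgroup G) (c e : ℕ), Nat.card (centralizer (U : Set G)) = c →
      Nat.card (normalizer (U : Set G)) = c * e → (∀ r ∈ [2, 3, 5, 7], ¬ r ∣ c) →
      ∀ r ∈ [2, 3, 5, 7], ∀ q ∈ [23, 29, 31, 37, 43], r.Prime → q.Prime → ¬ r ∣ q - 1 →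
        r ∣ c * e → ¬ q ∣ c := fun U c e h1 h2 h3 r hr q hq pr pq n d dq =>
    hE q hq r hr (rule pr pq (sq q hq) U (h2 ▸ d) (h1 ▸ h3 r hr) (h1 ▸ dq) n)
  have iso : ∀ (p : ℕ) [Fact p.Prime], p ∈ [23, 29, 31, 37, 43] →
      (∀ U : Sylow p G, Nat.card (centralizer ((U : Subgroup G) : Set G)) = p) →
      ∀ q : ℕ, q.Prime → ¬ q ∣ p → ∀ U : Subgroup G, Nat.card U = q → ∀ c,
        Nat.card (centralizer (U : Set G)) = c → ¬ p ∣ c := fun p hp m h q pq n U cU c h1 d =>
    noE (sq p m) n h (toE hp.out pq U (by rw [cU]) (h1 ▸ d))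
  have A31 : ∀ U : Sylow 31 G, Nat.card (U : Subgroup G) = 31 ∧
      Nat.card (centralizer ((U : Subgroup G) : Set G)) = 31 ∧
      Nat.card (normalizer ((U : Subgroup G) : Set G)) = 31 * 10 := fun U => by
    obtain ⟨c, mc, e, me, q, nd, cU, cC, cN, -⟩ := data hc (p := 31) (by decide) (by decide)
      (hE 31 (by simp)) U
    have f5 : 5 ∣ c * e := by
      obtain ⟨K, hK⟩ := h5
      obtain ⟨W, cW, hW⟩ := five (hE 31 (by simp)) K hK
      obtain ⟨P, rfl⟩ := sylOf (sq 31 (by simp)) W cW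
      rwa [← cN, ncard U P]
    have f2 : 2 ∣ c * e := by
      obtain ⟨a, t, ha, ta⟩ := h2
      obtain ⟨P, hP⟩ := sylOf (sq 31 (by simp)) (zpowers a) (by rw [Nat.card_zpowers, ha])
      have ot : 2 ∣ orderOf t := by
        by_contra hod
        obtain ⟨k, hk⟩ : Odd (orderOf t) := Nat.odd_iff.2 (by omega)
        have c2 : Commute (t ^ 2) a := by
          have : t * (t * a * t⁻¹) * t⁻¹ = a := by
            rw [ta, ← conj_inv, ta, inv_inv]
          calc t ^ 2 * a = t * (t * a * t⁻¹) * t⁻¹ * t ^ 2 := by rw [pow_two]; group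
            _ = _ := by rw [this]
        have c1 : Commute t⁻¹ a := by
          have e : t⁻¹ = (t ^ 2) ^ k := by
            rw [inv_eq_iff_mul_eq_one, ← pow_mul, ← pow_succ', ← hk, pow_orderOf_eq_one]
          rw [e]; exact c2.pow_left k
        have c0 : t * a * t⁻¹ = a := by rw [mul_assoc, ← c1.eq, mul_inv_cancel_left]
        rw [c0] at ta
        have : a ^ 2 = 1 := by rw [pow_two]; nth_rewrite 1 [ta]; exact inv_mul_cancel a
        have := orderOf_dvd_of_pow_eq_one this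
        rw [ha] at this
        omega
      rw [← cN, ncard U P, hP]
      exact ot.trans (orderOf_dvd_natCard _ (mem_nz (by rw [ta]; exact inv_mem (mem_zpowers a))))
    obtain ⟨rfl, rfl⟩ := n31 c mc e me q f2 f5
      (ru _ c e cC cN nd 5 (by simp) 23 (by simp) (by norm_num) (by norm_num) (by norm_num) f5)
      (ru _ c e cC cN nd 5 (by simp) 37 (by simp) (by norm_num) (by norm_num) (by norm_num) f5)
    exact ⟨cU, cC, cN⟩
  have I31 := iso 31 (by simp) fun U => (A31 U).2.1
  have A43 : ∀ U : Sylow 43 G, Nat.card (U : Subgroup G) = 43 ∧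
      Nat.card (centralizer ((U : Subgroup G) : Set G)) = 43 ∧
      Nat.card (normalizer ((U : Subgroup G) : Set G)) = 43 * 14 := fun U => by
    obtain ⟨c, mc, e, me, q, nd, cU, cC, cN, -⟩ := data hc (p := 43) (by decide) (by decide)
      (hE 43 (by simp)) U
    obtain ⟨rfl, rfl⟩ := n43 c mc e me q (I31 43 (by norm_num) (by norm_num) _ cU c cC)
      (ru _ c e cC cN nd 3 (by simp) 23 (by simp) (by norm_num) (by norm_num) (by norm_num))
      (ru _ c e cC cN nd 3 (by simp) 29 (by simp) (by norm_num) (by norm_num) (by norm_num))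
    exact ⟨cU, cC, cN⟩
  have I43 := iso 43 (by simp) fun U => (A43 U).2.1
  have A23 : ∀ U : Sylow 23 G, Nat.card (U : Subgroup G) = 23 ∧
      Nat.card (centralizer ((U : Subgroup G) : Set G)) = 23 ∧
      Nat.card (normalizer ((U : Subgroup G) : Set G)) = 23 * 22 := fun U => by
    obtain ⟨c, mc, e, me, q, nd, cU, cC, cN, -⟩ := data hc (p := 23) (by decide) (by decide)
      (hE 23 (by simp)) U
    rcases n23 c mc e me q (I31 23 (by norm_num) (by norm_num) _ cU c cC)
      (I43 23 (by norm_num) (by norm_num) _ cU c cC) with ⟨rfl, rfl⟩ | ⟨rfl, rfl⟩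
    · exact ⟨cU, cC, cN⟩
    exfalso
    obtain ⟨a, b, ha, ba⟩ := h11
    obtain ⟨P, hP⟩ := sylOf (sq 23 (by simp)) (zpowers a) (by rw [Nat.card_zpowers, ha])
    obtain ⟨c, mc, e, me, q, nd, cU', cC', cN', ci⟩ := data hc (p := 23) (by decide) (by decide)
      (hE 23 (by simp)) P
    have le := ccard U P
    rcases n23 c mc e me q (I31 23 (by norm_num) (by norm_num) _ cU' c cC')
      (I43 23 (by norm_num) (by norm_num) _ cU' c cC') with ⟨rfl, rfl⟩ | ⟨rfl, rfl⟩
    · omega
    have bn : b ∈ normalizer ((P : Subgroup G) : Set G) := by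
      rw [hP]; exact mem_nz (by rw [ba]; exact pow_mem (mem_zpowers a) 2)
    have m : b * b ∈ centralizer ((P : Subgroup G) : Set G) := mul_self_mem_of_index_two ci ⟨b, bn⟩
    have e1 := mem_centralizer_iff.1 m a (by rw [hP]; exact mem_zpowers a)
    have e2 : a ^ 3 = 1 := by
      have : b * (b * a * b⁻¹) * b⁻¹ = a := by
        calc _ = (b * b * a) * b⁻¹ * b⁻¹ := by group
          _ = a := by rw [← e1]; group
      rw [ba, ← conj_pow, ba, ← pow_mul] at this
      exact mul_right_cancel (b := a) (by rw [← pow_succ, one_mul]; exact this)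
    have := orderOf_dvd_of_pow_eq_one e2
    rw [ha] at this
    omega
  have I23 := iso 23 (by simp) fun U => (A23 U).2.1
  have A37 : ∀ U : Sylow 37 G, Nat.card (U : Subgroup G) = 37 ∧
      Nat.card (centralizer ((U : Subgroup G) : Set G)) = 37 ∧
      Nat.card (normalizer ((U : Subgroup G) : Set G)) = 37 * 12 := fun U => by
    obtain ⟨c, mc, e, me, q, nd, cU, cC, cN, -⟩ := data hc (p := 37) (by decide) (by decide)
      (hE 37 (by simp)) U
    obtain ⟨rfl, rfl⟩ := n37 c mc e me q (I31 37 (by norm_num) (by norm_num) _ cU c cC)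
      (I43 37 (by norm_num) (by norm_num) _ cU c cC) (I23 37 (by norm_num) (by norm_num) _ cU c cC)
    exact ⟨cU, cC, cN⟩
  have I37 := iso 37 (by simp) fun U => (A37 U).2.1
  have A29 : ∀ U : Sylow 29 G, Nat.card (U : Subgroup G) = 29 ∧
      Nat.card (centralizer ((U : Subgroup G) : Set G)) = 29 ∧
      Nat.card (normalizer ((U : Subgroup G) : Set G)) = 29 * 28 := fun U => by
    obtain ⟨c, mc, e, me, q, nd, cU, cC, cN, -⟩ := data hc (p := 29) (by decide) (by decide)
      (hE 29 (by simp)) U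
    obtain ⟨rfl, rfl⟩ := n29 c mc e me q (I31 29 (by norm_num) (by norm_num) _ cU c cC)
      (I43 29 (by norm_num) (by norm_num) _ cU c cC) (I23 29 (by norm_num) (by norm_num) _ cU c cC)
      (I37 29 (by norm_num) (by norm_num) _ cU c cC)
    exact ⟨cU, cC, cN⟩
  exact ⟨fun U => ⟨fin1 U (A23 U).1 (A23 U).2.1, (A23 U).2.2⟩,
    fun U => ⟨fin1 U (A29 U).1 (A29 U).2.1, (A29 U).2.2⟩,
    fun U => ⟨fin1 U (A31 U).1 (A31 U).2.1, (A31 U).2.2⟩,
    fun U => ⟨fin1 U (A37 U).1 (A37 U).2.1, (A37 U).2.2⟩,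
    fun U => ⟨fin1 U (A43 U).1 (A43 U).2.1, (A43 U).2.2⟩⟩

end H24.Sy4
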