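import Cfsg.Agent.H24.Sy4b
import Cfsg.Prelude.Def_JankoFourType

/-! Elements of small prime order do not commute with elements of large prime order. -/

set_option autoImplicit false
set_option maxHeartbeats 400000

namespace H24.Sy4

open Subgroup

variable {G : Type*} [Group G] [Finite G]

theorem viaN {p n : ℕ} [Fact p.Prime] (h2 : ¬ p ^ 2 ∣ Nat.card G) (Q : Subgroup G)
    (hQ : Nat.card Q = p) (hn : Nat.card (normalizer (Q : Set G)) = n) {x y : G}
    (hx : orderOf x = p) (c : Commute x y) : orderOf y ∣ n := by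
  obtain ⟨P, rfl⟩ := sylOf h2 Q hQ
  obtain ⟨R, hR⟩ := sylOf h2 (zpowers x) (by rw [Nat.card_zpowers, hx])
  rw [← hn, ncard P R, hR]
  exact orderOf_dvd_natCard _ (mem_nz (by rw [← c.eq, mul_inv_cancel_right]; exact mem_zpowers x))

theorem hxOf {z : G} (hJ : Cfsg.IsOfJankoFourTypeAt z)
    (cz : Nat.card (centralizer ({z} : Set G)) = 21799895040)
    (h3 : ∀ r : G, orderOf r = 3 → ∃ t : G, normalizer (zpowers r : Set G) ≤ centralizer {t} ∧
      Nat.card (centralizer ({t} : Set G)) = 21799895040)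
    (s69 : ∀ t : G, orderOf t = 2 → ¬ IsConj z t → ∃ V K : Subgroup G,
      V ≤ centralizer ({t} : Set G) ∧ K ≤ centralizer ({t} : Set G) ∧
      centralizer ({t} : Set G) ≤ normalizer (V : Set G) ∧ Cfsg.IsElementaryAbelian 2 V ∧
      Nat.card ↥V = 2 ^ 11 ∧ K ⊓ V = ⊥ ∧ K ⊔ V = centralizer ({t} : Set G) ∧
      Nonempty (↥K ≃* MulAut ↥Cfsg.Spor.M22))
    (s72 : ∀ Q : Subgroup G, Nat.card Q = 5 → Q ≤ centralizer ({z} : Set G) →
      ¬ (25 ∣ Nat.card G) ∧ Nat.card (normalizer (Q : Set G)) = 2 ^ 8 * 3 * 5 * 7)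
    (s73 : ∀ Q : Subgroup G, Nat.card Q = 7 → Q ≤ centralizer ({z} : Set G) →
      ¬ (49 ∣ Nat.card G) ∧ Nat.card (normalizer (Q : Set G)) = 2 ^ 3 * 3 ^ 2 * 5 * 7)
    (x y : G) (hx : orderOf x ∈ [2, 3, 5, 7]) (hy : orderOf y ∈ [23, 29, 31, 37, 43]) :
    ¬ Commute x y := by
  intro c
  have fin : ∀ n : ℕ, n ∣ 21799895040 → orderOf y ∣ n → False := fun n h1 h2 => by
    have : ∀ q ∈ [23, 29, 31, 37, 43], ¬ q ∣ 21799895040 := by decide +kernel
    exact this _ hy (h2.trans h1)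
  have ex : ∀ p : ℕ, p.Prime → p ∣ 21799895040 →
      ∃ Q : Subgroup G, Nat.card Q = p ∧ Q ≤ centralizer ({z} : Set G) := fun p hp d => by
    haveI := Fact.mk hp
    obtain ⟨w, hw⟩ := exists_prime_orderOf_dvd_card' (G := centralizer ({z} : Set G)) p (cz ▸ d)
    exact ⟨zpowers (w : G), by rw [Nat.card_zpowers]; simpa using hw, zpowers_le.2 w.2⟩
  simp only [List.mem_cons, List.not_mem_nil, or_false] at hx
  rcases hx with hx | hx | hx | hx
  · by_cases hc : IsConj z x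
    · obtain ⟨g, hg⟩ := isConj_iff.1 hc
      have m : g⁻¹ * y * g ∈ centralizer ({z} : Set G) := mem_centralizer_singleton_iff.2 (by
        calc g⁻¹ * y * g * z = g⁻¹ * (y * (g * z * g⁻¹)) * g := by group
          _ = g⁻¹ * ((g * z * g⁻¹) * y) * g := by rw [hg, c.eq]
          _ = _ := by group)
      have o : orderOf (g⁻¹ * y * g) = orderOf y := by
        simpa using (MulAut.conj g⁻¹).orderOf_eq y
      exact fin _ dvd_rfl (by rw [← o, ← cz]; exact orderOf_dvd_natCard _ m)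
    · obtain ⟨V, K, hV, hK, hn, -, cV, -, hs, ⟨e⟩⟩ := s69 x hx hc
      obtain ⟨P, -, -, c13, -, ⟨N, -, hN, -, cN, ⟨_, ⟨f⟩⟩, -⟩, -⟩ := hJ
      have cA : Nat.card K = 887040 := by
        have := card_eq_card_quotient_mul_card_subgroup (N.subgroupOf (centralizer ({z} : Set G)))
        rw [cz, Nat.card_congr f.toEquiv, ← Nat.card_congr e.toEquiv,
          Nat.card_congr (subgroupOfEquivOfLe hN).toEquiv, cN, c13] at this
        omega
      have m : y ∈ centralizer ({x} : Set G) := mem_centralizer_singleton_iff.2 c.eq.symm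
      set C := centralizer ({x} : Set G)
      haveI : (V.subgroupOf C).Normal := (normal_subgroupOf_iff_le_normalizer hV).2 hn
      have t1 : K.subgroupOf C ⊔ V.subgroupOf C = ⊤ := by
        rw [← subgroupOf_sup hK hV, hs, subgroupOf_self]
      have i1 := card_mul_index (V.subgroupOf C)
      rw [← relIndex_top_right, ← t1, relIndex_sup_right,
        Nat.card_congr (subgroupOfEquivOfLe hV).toEquiv, cV] at i1
      have i2 := relIndex_dvd_card (V.subgroupOf C) (K.subgroupOf C)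
      rw [Nat.card_congr (subgroupOfEquivOfLe hK).toEquiv, cA] at i2
      refine fin (2 ^ 11 * 887040) (by norm_num) ((orderOf_dvd_natCard _ m).trans ?_)
      rw [← i1]
      exact mul_dvd_mul_left _ i2
  · obtain ⟨t, h1, h2⟩ := h3 x hx
    exact fin _ dvd_rfl (h2 ▸ orderOf_dvd_natCard _
      (h1 (mem_nz (by rw [← c.eq, mul_inv_cancel_right]; exact mem_zpowers x))))
  · haveI : Fact (Nat.Prime 5) := ⟨by norm_num⟩
    obtain ⟨Q, h1, h2⟩ := ex 5 (by norm_num) (by norm_num)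
    obtain ⟨a, b⟩ := s72 Q h1 h2
    exact fin _ (by norm_num) (viaN a Q h1 b hx c)
  · haveI : Fact (Nat.Prime 7) := ⟨by norm_num⟩
    obtain ⟨Q, h1, h2⟩ := ex 7 (by norm_num) (by norm_num)
    obtain ⟨a, b⟩ := s73 Q h1 h2
    exact fin _ (by norm_num) (viaN a Q h1 b hx c)

theorem tr31 {H : Type*} [Group H] (e : G ≃* H)
    (h : ∃ a t : H, orderOf a = 31 ∧ t * a * t⁻¹ = a⁻¹) :
    ∃ a t : G, orderOf a = 31 ∧ t * a * t⁻¹ = a⁻¹ := by
  obtain ⟨a, t, h1, h2⟩ := h
  exact ⟨e.symm a, e.symm t, by rw [MulEquiv.orderOf_eq, h1], by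
    rw [← map_inv, ← map_mul, ← map_mul, h2, map_inv]⟩

theorem tr23 {H : Type*} [Group H] (e : G ≃* H)
    (h : ∃ a b : H, orderOf a = 23 ∧ b * a * b⁻¹ = a ^ 2) :
    ∃ a b : G, orderOf a = 23 ∧ b * a * b⁻¹ = a ^ 2 := by
  obtain ⟨a, t, h1, h2⟩ := h
  exact ⟨e.symm a, e.symm t, by rw [MulEquiv.orderOf_eq, h1], by
    rw [← map_inv, ← map_mul, ← map_mul, h2, map_pow]⟩

end H24.Sy4
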