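import Cfsg.Agent.H24.Sy4c
import Cfsg.Agent.H29.U0
import Cfsg.Agent.H25.C31
import Cfsg.Agent.H22.Linear
import Cfsg.Prelude.Def_TwoFusion

/-! The large Sylow normalizers for a group of Janko-four type isomorphic to `J4`. -/

set_option autoImplicit false
set_option maxHeartbeats 400000

namespace H24.Sy4

open Subgroup H29.U

variable {G : Type*} [Group G] [Finite G]

theorem full (e : G ≃* Cfsg.Spor.J4) {z : G} (hJ : Cfsg.IsOfJankoFourTypeAt z)
    (tri : (∀ r : G, orderOf r = 3 → ∃ t R N, XS t R N ∧ r ∈ N ∧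
      normalizer (zpowers r : Set G) ≤ centralizer {t}) ∧
      ∀ z : G, Cfsg.IsOfJankoFourTypeAt z → ∃ R N, XS z R N ∧ R = Cfsg.twoCoreOfCentralizer z)
    (s69 : ∀ t : G, orderOf t = 2 → ¬ IsConj z t → ∃ V K : Subgroup G,
      V ≤ centralizer ({t} : Set G) ∧ K ≤ centralizer ({t} : Set G) ∧
      centralizer ({t} : Set G) ≤ normalizer (V : Set G) ∧ Cfsg.IsElementaryAbelian 2 V ∧
      Nat.card ↥V = 2 ^ 11 ∧ K ⊓ V = ⊥ ∧ K ⊔ V = centralizer ({t} : Set G) ∧
      Nonempty (↥K ≃* MulAut ↥Cfsg.Spor.M22))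
    (s70 : ∃ B : Subgroup G, Nonempty (↥B ≃* Matrix.SpecialLinearGroup (Fin 5) (ZMod 2)))
    (s72 : ∀ Q : Subgroup G, Nat.card Q = 5 → Q ≤ centralizer ({z} : Set G) →
      ¬ (25 ∣ Nat.card G) ∧ Nat.card (normalizer (Q : Set G)) = 2 ^ 8 * 3 * 5 * 7)
    (s73 : ∀ Q : Subgroup G, Nat.card Q = 7 → Q ≤ centralizer ({z} : Set G) →
      ¬ (49 ∣ Nat.card G) ∧ Nat.card (normalizer (Q : Set G)) = 2 ^ 3 * 3 ^ 2 * 5 * 7) :
    (∀ U : Sylow 23 G, Subgroup.centralizer ((U : Subgroup G) : Set G) = (U : Subgroup G) ∧ Nat.card ↥(Subgroup.normalizer ((U : Subgroup G) : Set G)) = 23 * 22) ∧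
    (∀ U : Sylow 29 G, Subgroup.centralizer ((U : Subgroup G) : Set G) = (U : Subgroup G) ∧ Nat.card ↥(Subgroup.normalizer ((U : Subgroup G) : Set G)) = 29 * 28) ∧
    (∀ U : Sylow 31 G, Subgroup.centralizer ((U : Subgroup G) : Set G) = (U : Subgroup G) ∧ Nat.card ↥(Subgroup.normalizer ((U : Subgroup G) : Set G)) = 31 * 10) ∧
    (∀ U : Sylow 37 G, Subgroup.centralizer ((U : Subgroup G) : Set G) = (U : Subgroup G) ∧ Nat.card ↥(Subgroup.normalizer ((U : Subgroup G) : Set G)) = 37 * 12) ∧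
    (∀ U : Sylow 43 G, Subgroup.centralizer ((U : Subgroup G) : Set G) = (U : Subgroup G) ∧ Nat.card ↥(Subgroup.normalizer ((U : Subgroup G) : Set G)) = 43 * 14) := by
  haveI : Fact (Nat.Prime 23) := ⟨by norm_num⟩
  haveI : Fact (Nat.Prime 29) := ⟨by norm_num⟩
  haveI : Fact (Nat.Prime 31) := ⟨by norm_num⟩
  haveI : Fact (Nat.Prime 37) := ⟨by norm_num⟩
  haveI : Fact (Nat.Prime 43) := ⟨by norm_num⟩
  obtain ⟨R, N, h, -⟩ := tri.2 z hJ
  refine syl ((Nat.card_congr e.toEquiv).trans H7.JD.j_main.2.1.2)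
    (hxOf hJ h.cC (fun r hr => ?_) s69 s72 s73) ?_ (tr31 e H25.C31.h2) (tr23 e H25.C31.h11)
  · obtain ⟨t, R, N, h, -, k⟩ := tri.1 r hr
    exact ⟨t, k, h.cC⟩
  · obtain ⟨B, ⟨f⟩⟩ := s70
    refine ⟨B, (Nat.card_congr f.toEquiv).trans ?_⟩
    have := H22.card_SL (F := ZMod 2) 5 (by norm_num)
    rw [ZMod.card] at this
    exact (one_mul _).symm.trans (this.trans (by decide))

theorem h77 (hc : Nat.card G = 86775571046077562880)
    (h : (∀ U : Sylow 23 G, Subgroup.centralizer ((U : Subgroup G) : Set G) = (U : Subgroup G) ∧ Nat.card ↥(Subgroup.normalizer ((U : Subgroup G) : Set G)) = 23 * 22) ∧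
    (∀ U : Sylow 29 G, Subgroup.centralizer ((U : Subgroup G) : Set G) = (U : Subgroup G) ∧ Nat.card ↥(Subgroup.normalizer ((U : Subgroup G) : Set G)) = 29 * 28) ∧
    (∀ U : Sylow 31 G, Subgroup.centralizer ((U : Subgroup G) : Set G) = (U : Subgroup G) ∧ Nat.card ↥(Subgroup.normalizer ((U : Subgroup G) : Set G)) = 31 * 10) ∧
    (∀ U : Sylow 37 G, Subgroup.centralizer ((U : Subgroup G) : Set G) = (U : Subgroup G) ∧ Nat.card ↥(Subgroup.normalizer ((U : Subgroup G) : Set G)) = 37 * 12) ∧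
    (∀ U : Sylow 43 G, Subgroup.centralizer ((U : Subgroup G) : Set G) = (U : Subgroup G) ∧ Nat.card ↥(Subgroup.normalizer ((U : Subgroup G) : Set G)) = 43 * 14)) :
    ∀ p ∈ [23, 29, 31, 37, 43], ∀ x : G, orderOf x = p →
      Subgroup.centralizer ({x} : Set G) ≤ Subgroup.zpowers x := by
  have key : ∀ p : ℕ, p.Prime → ¬ p ^ 2 ∣ 86775571046077562880 →
      (∀ U : Sylow p G, centralizer ((U : Subgroup G) : Set G) = (U : Subgroup G)) →
      ∀ x : G, orderOf x = p → centralizer ({x} : Set G) ≤ zpowers x := fun p hp n k x hx => by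
    haveI := Fact.mk hp
    obtain ⟨P, hP⟩ := sylOf (hc ▸ n) (zpowers x) (by rw [Nat.card_zpowers, hx])
    intro y hy
    rw [← hP, ← k P, hP]
    rintro _ ⟨j, rfl⟩
    have c : Commute x y := (mem_centralizer_singleton_iff.1 hy).symm
    exact (c.zpow_left j).eq
  intro p hp
  simp only [List.mem_cons, List.not_mem_nil, or_false] at hp
  rcases hp with rfl | rfl | rfl | rfl | rfl
  · exact key _ (by norm_num) (by norm_num) fun U => (h.1 U).1
  · exact key _ (by norm_num) (by norm_num) fun U => (h.2.1 U).1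
  · exact key _ (by norm_num) (by norm_num) fun U => (h.2.2.1 U).1
  · exact key _ (by norm_num) (by norm_num) fun U => (h.2.2.2.1 U).1
  · exact key _ (by norm_num) (by norm_num) fun U => (h.2.2.2.2 U).1

end H24.Sy4
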